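import Cfsg.Agent.Lib.ConwayFive.Perms

/-!
Completing an elliptic frame by the singular points of its orthogonal space.
-/

set_option autoImplicit false
set_option maxRecDepth 100000
set_option synthInstance.maxSize 1000

namespace CfsgLib.ConwayFive

/-- The coordinates of the projection on the span of four vectors. -/
def coP (P : Fin 5 → V) (v : V) (i : Fin 4) : ZMod 2 :=
  bl v (P i.castSucc) + (bl v (P 0) + bl v (P 1) + bl v (P 2) + bl v (P 3))

theorem coP_alg : ∀ a b c d : ZMod 2, ∀ i : Fin 4,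
    ![b + c + d, a + c + d, a + b + d, a + b + c] i +
      ((b + c + d) + (a + c + d) + (a + b + d) + (a + b + c)) = ![a, b, c, d] i := by decide

/-- The hypothesis on a frame. -/
structure IsHalfFrame (P : Fin 5 → V) : Prop where
  qP : ∀ i, q (P i) = 0
  blP : ∀ i j, bl (P i) (P j) = if i = j then 0 else 1

/-- The orthogonal space of the first four vectors. -/
def Perp (P : Fin 5 → V) (w : V) : Prop := ∀ i : Fin 4, bl w (P i.castSucc) = 0

namespace IsHalfFrame

variable {P : Fin 5 → V} (h : IsHalfFrame P)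
include h

theorem coP_cmb_add (x : Fin 4 → ZMod 2) {w : V} (hw : Perp P w) : coP P (cmb P x + w) = x := by
  have h0 : bl w (P 0) = 0 := hw 0
  have h1 : bl w (P 1) = 0 := hw 1
  have h2 : bl w (P 2) = 0 := hw 2
  have h3 : bl w (P 3) = 0 := hw 3
  have e : ∀ j : Fin 4, bl (cmb P x + w) (P j.castSucc) =
      ![x 1 + x 2 + x 3, x 0 + x 2 + x 3, x 0 + x 1 + x 3, x 0 + x 1 + x 2] j := by
    intro j
    rw [bl_add_left, hw j, add_zero]
    fin_cases j <;> simp [cmb, bl_add_left, bl_smul_left, h.blP]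
  funext i
  have e0 := e 0; have e1 := e 1; have e2 := e 2; have e3 := e 3
  simp only [Fin.castSucc_zero, show ((1 : Fin 4).castSucc) = 1 from rfl,
    show ((2 : Fin 4).castSucc) = 2 from rfl, show ((3 : Fin 4).castSucc) = 3 from rfl] at e0 e1 e2 e3
  rw [coP, e i, e0, e1, e2, e3]
  refine (coP_alg (x 0) (x 1) (x 2) (x 3) i).trans ?_
  fin_cases i <;> rfl

theorem perp_rest (v : V) : Perp P (v + cmb P (coP P v)) := by
  intro i
  have h0 : ∀ a b c d : ZMod 2, ∀ i : Fin 4, ![a, b, c, d] i +
      ![(b + (a + b + c + d)) + (c + (a + b + c + d)) + (d + (a + b + c + d)),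
        (a + (a + b + c + d)) + (c + (a + b + c + d)) + (d + (a + b + c + d)),
        (a + (a + b + c + d)) + (b + (a + b + c + d)) + (d + (a + b + c + d)),
        (a + (a + b + c + d)) + (b + (a + b + c + d)) + (c + (a + b + c + d))] i = 0 := by decide
  refine Eq.trans ?_ (h0 (bl v (P 0)) (bl v (P 1)) (bl v (P 2)) (bl v (P 3)) i)
  rw [bl_add_left]
  fin_cases i <;> simp [cmb, coP, bl_add_left, bl_smul_left, h.blP]

theorem q_cmb (x : Fin 4 → ZMod 2) : q (cmb P x) = qco x := by
  simp only [cmb, qco, q_add, q_smul, bl_add_left, bl_smul_left, bl_smul_right, h.qP, h.blP]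
  simp only [Fin.reduceEq, if_false]
  ring

omit h in
theorem bl_cmb_perp (x : Fin 4 → ZMod 2) {w : V} (hw : Perp P w) : bl (cmb P x) w = 0 := by
  have e : ∀ i : Fin 4, bl (P i.castSucc) w = 0 := fun i => by rw [bl_comm]; exact hw i
  simp only [cmb, bl_add_left, bl_smul_left, show bl (P 0) w = 0 from e 0,
    show bl (P 1) w = 0 from e 1, show bl (P 2) w = 0 from e 2, show bl (P 3) w = 0 from e 3,
    mul_zero, add_zero]

/-- The decomposition. -/
def splitEquiv : V ≃ (Fin 4 → ZMod 2) × {w : V // Perp P w} where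
  toFun v := (coP P v, ⟨v + cmb P (coP P v), h.perp_rest v⟩)
  invFun p := cmb P p.1 + p.2
  left_inv v := by
    show cmb P (coP P v) + (v + cmb P (coP P v)) = v
    rw [add_comm v, ← add_assoc, vadd_self, zero_add]
  right_inv p := by
    obtain ⟨x, w, hw⟩ := p
    refine Prod.ext (h.coP_cmb_add x hw) (Subtype.ext ?_)
    show cmb P x + w + cmb P (coP P (cmb P x + w)) = w
    rw [h.coP_cmb_add x hw, add_comm (cmb P x) w, add_assoc, vadd_self, add_zero]

omit h in
theorem card_qco : ∀ t : ZMod 2,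
    (Finset.univ.filter fun x : Fin 4 → ZMod 2 => qco x = t).card = if t = 0 then 6 else 10 := by
  decide +kernel

omit h in
theorem card_zeros : (Finset.univ.filter fun v : V => q v = 0).card = 136 := by decide +kernel

theorem card_sing : Nat.card {w : V // Perp P w ∧ q w = 0 ∧ w ≠ 0} = 5 := by
  classical
  have hP : Fintype.card {w : V // Perp P w} = 16 := by
    have e := Fintype.card_congr h.splitEquiv
    rw [Fintype.card_prod, Fintype.card_fun, Fintype.card_fun] at e
    simp at e
    omega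
  have hq : ∀ v : V, q v = 0 ↔ qco (h.splitEquiv v).1 = q (h.splitEquiv v).2.1 := by
    intro v
    have e := congrArg q (h.splitEquiv.symm_apply_apply v)
    change q (cmb P _ + (h.splitEquiv v).2.1) = q v at e
    rw [q_add, h.q_cmb, bl_cmb_perp _ (h.splitEquiv v).2.2, add_zero] at e
    rw [← e, CharTwo.add_eq_zero]
  have hZ : Fintype.card {v : V // q v = 0} =
      ∑ w : {w : V // Perp P w}, (if q w.1 = 0 then 6 else 10) := by
    let e1 : {v : V // q v = 0} ≃
        {p : (Fin 4 → ZMod 2) × {w : V // Perp P w} // qco p.1 = q p.2.1} :=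
      h.splitEquiv.subtypeEquiv hq
    let e2 : {p : (Fin 4 → ZMod 2) × {w : V // Perp P w} // qco p.1 = q p.2.1} ≃
        Σ w : {w : V // Perp P w}, {x : Fin 4 → ZMod 2 // qco x = q w.1} :=
      { toFun := fun p => ⟨p.1.2, p.1.1, p.2⟩
        invFun := fun p => ⟨(p.2.1, p.1), p.2.2⟩
        left_inv := fun _ => rfl
        right_inv := fun _ => rfl }
    rw [Fintype.card_congr (e1.trans e2), Fintype.card_sigma]
    exact Finset.sum_congr rfl fun w _ => by rw [Fintype.card_subtype, card_qco]
  rw [Fintype.card_subtype, card_zeros, Finset.sum_ite, Finset.sum_const, Finset.sum_const,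
    smul_eq_mul, smul_eq_mul] at hZ
  have hs := Finset.card_filter_add_card_filter_not (s := (Finset.univ : Finset {w : V // Perp P w}))
    (fun w => q w.1 = 0)
  rw [Finset.card_univ, hP] at hs
  have h6 : (Finset.univ.filter fun w : {w : V // Perp P w} => q w.1 = 0).card = 6 := by omega
  have hw0 : Perp P 0 := fun i => bl_zero_left _
  have e : Nat.card {w : V // Perp P w ∧ q w = 0 ∧ w ≠ 0} =
      ((Finset.univ.filter fun w : {w : V // Perp P w} => q w.1 = 0).erase ⟨0, hw0⟩).card := by
    rw [← Fintype.card_coe, ← Nat.card_eq_fintype_card]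
    exact Nat.card_congr
      { toFun := fun w => ⟨⟨w.1, w.2.1⟩, by simp [w.2.2.1, w.2.2.2]⟩
        invFun := fun w => ⟨w.1.1, w.1.2, by simpa using (Finset.mem_erase.1 w.2).2, fun e =>
          (Finset.mem_erase.1 w.2).1 (Subtype.ext e)⟩
        left_inv := fun _ => rfl
        right_inv := fun _ => rfl }
  rw [e, Finset.card_erase_of_mem (by simp), h6]

/-- An isometry of order five without fixed points on the orthogonal space gives a frame of it. -/
theorem exists_complement (T : O) (hT5 : T ^ 5 = 1) (hTP : ∀ w, Perp P w → Perp P (ap T w))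
    (hfix : ∀ w, Perp P w → ap T w = w → w = 0) :
    ∃ γ : Fin 5 → V, (∀ i, Perp P (γ i) ∧ q (γ i) = 0) ∧
      (∀ i j, bl (γ i) (γ j) = if i = j then 0 else 1) ∧ ∀ i, ap T (γ i) = γ (i + 1) := by
  classical
  have : Nonempty {w : V // Perp P w ∧ q w = 0 ∧ w ≠ 0} :=
    (Nat.card_pos_iff.1 (by rw [h.card_sing]; norm_num)).1
  obtain ⟨⟨g0, hg0⟩⟩ := ‹Nonempty {w : V // Perp P w ∧ q w = 0 ∧ w ≠ 0}›
  let γ : ℕ → V := fun n => ap (T ^ n) g0
  have hstep : ∀ n, ap T (γ n) = γ (n + 1) := fun n => by
    simp only [γ]; rw [← ap_mul, ← pow_succ']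
  have hper : ∀ n, γ n = γ (n % 5) := fun n => by
    simp only [γ]; rw [pow_eq_pow_mod n hT5]
  have hmem : ∀ n, Perp P (γ n) ∧ q (γ n) = 0 ∧ γ n ≠ 0 := by
    intro n
    induction n with
    | zero => exact hg0
    | succ n ih =>
      rw [← hstep]
      exact ⟨hTP _ ih.1, by rw [q_ap, ih.2.1],
        fun e => ih.2.2 (ap_inj T (e.trans (ap_zero T).symm))⟩
  have hadd : ∀ m n, γ (m + n) = ap (T ^ m) (γ n) := fun m n => by
    simp only [γ]; rw [← ap_mul, ← pow_add]
  have hne : ∀ n k, 0 < k → k < 5 → γ (n + k) ≠ γ n := by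
    intro n k h0 h5 e
    rw [add_comm, hadd] at e
    have e2 : ∀ j, ap ((T ^ k) ^ j) (γ n) = γ n := by
      intro j
      induction j with
      | zero => rfl
      | succ j ih => rw [pow_succ, ap_mul, e, ih]
    obtain ⟨j, hj⟩ : ∃ j, T ^ (k * j) = T := by
      interval_cases k
      · exact ⟨1, by simp⟩
      · exact ⟨3, by rw [pow_eq_pow_mod _ hT5]; simp⟩
      · exact ⟨2, by rw [pow_eq_pow_mod _ hT5]; simp⟩
      · exact ⟨4, by rw [pow_eq_pow_mod _ hT5]; simp⟩
    have := e2 j
    rw [← pow_mul, hj] at this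
    exact (hmem n).2.2 (hfix _ (hmem n).1 this)
  have hinj : ∀ i j : Fin 5, γ i = γ j → i = j := by
    intro i j e
    rcases lt_trichotomy (i : ℕ) j with hl | hl | hl
    · refine absurd ?_ (hne i (j - i) (by omega) (by omega))
      rw [Nat.add_sub_cancel' hl.le, e]
    · exact Fin.ext hl
    · refine absurd ?_ (hne j (i - j) (by omega) (by omega))
      rw [Nat.add_sub_cancel' hl.le, e]
  have hall : ∀ w, Perp P w → q w = 0 → w ≠ 0 → ∃ i : Fin 5, γ i = w := by
    intro w h1 h2 h3
    let F : Fin 5 → {w : V // Perp P w ∧ q w = 0 ∧ w ≠ 0} := fun i => ⟨γ i, hmem i⟩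
    have hb := (Nat.bijective_iff_injective_and_card F).2
      ⟨fun i j e => hinj i j (congrArg Subtype.val e), by rw [h.card_sing]; simp⟩
    obtain ⟨i, hi⟩ := hb.2 ⟨w, h1, h2, h3⟩
    exact ⟨i, congrArg Subtype.val hi⟩
  -- consecutive and next but one
  have hpair : ∀ d, 0 < d → d < 5 → bl (γ 0) (γ d) = 1 := by
    intro d h0 h5
    by_contra hc
    have hc0 : bl (γ 0) (γ d) = 0 := (z2_cases _).resolve_right hc
    obtain ⟨k, hk⟩ := hall (γ 0 + γ d)
      (fun i => by rw [bl_add_left, (hmem 0).1 i, (hmem d).1 i, add_zero])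
      (by rw [q_add, (hmem 0).2.1, (hmem d).2.1, hc0, add_zero, add_zero])
      (fun e => hne 0 d h0 h5 (by rw [zero_add]; exact (vadd_eq_zero.1 e).symm))
    have hsh : ∀ m, γ (m + k) = γ m + γ (m + d) := fun m => by
      rw [hadd, hk, ap_add, ← hadd, ← hadd, add_zero]
    have cases_k : (k : ℕ) < 5 := k.2
    have A1 := hsh d
    have A2 := hsh k
    have A0 := hsh 0
    simp only [zero_add] at A0
    -- `γ k = γ 0 + γ d`, shifted by `d` and by `k`
    generalize (k : ℕ) = e at A0 A1 A2 cases_k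
    have hne' : ∀ m n, m % 5 ≠ n % 5 → γ m ≠ γ n := fun m n hmn e' => hmn (by
      rw [hper m, hper n] at e'
      exact congrArg Fin.val (hinj ⟨m % 5, Nat.mod_lt _ (by norm_num)⟩ ⟨n % 5, Nat.mod_lt _ (by norm_num)⟩ e'))
    have key : ∀ m, γ (m + e) = γ m + γ (m + d) := fun m => by
      rw [hadd, A0, ap_add, ← hadd, ← hadd, add_zero]
    rcases Nat.eq_zero_or_pos e with he | he
    · refine (hmem d).2.2 ?_
      rw [he] at A0
      exact left_eq_add.1 A0
    by_cases hed : e = d
    · refine (hmem 0).2.2 ?_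
      rw [hed] at A0
      exact right_eq_add.1 A0
    by_cases h2 : (d + d) % 5 = e
    · -- then `γ (3d) = γ 0`
      refine hne' (d + d + d) 0 (by omega) ?_
      have hee : ∀ m, γ (m + e) = γ (m + (d + d)) := fun m => by
        rw [hadd m e, hadd m (d + d), hper e, hper (d + d), h2, Nat.mod_eq_of_lt cases_k]
      have a := key d
      rw [hee] at a
      have a0 := key 0
      rw [hee] at a0
      simp only [zero_add] at a0
      rw [show d + d + d = d + (d + d) by ring, a, a0, add_left_comm, vadd_self, add_zero]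
    by_cases h4 : (e + d) % 5 = 0
    · -- then `γ (2d) = γ e`
      refine hne' (d + d) e (by omega) ?_
      have a := key d
      rw [hper (d + e), show (d + e) % 5 = 0 by omega] at a
      rw [A0, a, add_assoc, add_comm (γ (d + d)), ← add_assoc, vadd_self, zero_add]
    · -- then `e + e ≡ d`, so `γ (e + d) = γ 0 + ...`
      have h3 : (e + e) % 5 = d := by interval_cases d <;> interval_cases e <;> omega
      refine hne' (e + d) 0 (by omega) ?_
      have a := key e
      rw [hper (e + e), h3] at a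
      have b : γ (e + d) = γ d + γ e := by
        rw [a, add_comm (γ e) (γ (e + d)), add_assoc, vadd_self, add_zero]
      rw [b, A0, add_comm (γ 0) (γ d), ← add_assoc, vadd_self, zero_add]
  refine ⟨fun i => γ i, fun i => ⟨(hmem i).1, (hmem i).2.1⟩, fun i j => ?_, fun i => ?_⟩
  · by_cases hij : i = j
    · rw [hij, if_pos rfl, bl_self]
    rw [if_neg hij]
    show bl (γ i) (γ j) = 1
    rcases lt_or_gt_of_ne (Fin.val_injective.ne hij) with hl | hl
    · have e1 : γ j = ap (T ^ (i : ℕ)) (γ (j - i)) := by rw [← hadd, Nat.add_sub_cancel' hl.le]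
      have e2 : γ i = ap (T ^ (i : ℕ)) (γ 0) := by rw [← hadd, add_zero]
      rw [e1, e2, bl_ap]
      exact hpair _ (by omega) (by omega)
    · have e1 : γ i = ap (T ^ (j : ℕ)) (γ (i - j)) := by rw [← hadd, Nat.add_sub_cancel' hl.le]
      have e2 : γ j = ap (T ^ (j : ℕ)) (γ 0) := by rw [← hadd, add_zero]
      rw [bl_comm, e1, e2, bl_ap]
      exact hpair _ (by omega) (by omega)
  · rw [hstep, hper]
    congr 1

end IsHalfFrame

end CfsgLib.ConwayFive
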