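import Cfsg.Agent.Lib.ConwayFive.Setting
import Cfsg.Agent.Lib.ConwayFive.Frames
import Cfsg.Agent.Lib.SuzukiType.Build

/-!
The coordinates for a group of Conway type and an element of order five with elliptic
four-dimensional fixed space.
-/

set_option autoImplicit false
set_option linter.unusedSectionVars false
set_option linter.style.haveILetI false

namespace CfsgLib.ConwayFive

open CfsgLib.ExtraspecialLarge CfsgLib.ClassicalForms
open CfsgLib.SuzukiType (exists_action conj_fix_iff)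

variable {G : Type*} [Group G] [Finite G]

theorem card_O_values : Nat.card (orth (qPlus 4 (ZMod 2))) = 348364800 ∧
    Nat.card (orth (qMinus 3 (ZMod 2) 1 1)) = 394813440 := by
  constructor
  · have h := card_orth_qPlus (F := ZMod 2) 4 (by norm_num)
    rw [Nat.card_zmod] at h
    norm_num [Finset.prod_range_succ] at h
    exact_mod_cast h
  · have h := card_orth_qMinus CfsgLib.SuzukiType.aniso_one 3
    rw [Nat.card_zmod] at h
    norm_num [Finset.prod_range_succ] at h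
    exact_mod_cast h

theorem card_Omega :
    2 * Nat.card (Cfsg.Omega (ZMod 2) (Cfsg.quadFormPlus 4 (ZMod 2))) = Nat.card O := by
  have hn : 5 ≤ Fintype.card (Fin 4 ⊕ Fin 4) := by simp
  have hg := isGen_qPlus (F := ZMod 2) 4
  have hQ := nondeg_qPlus (F := ZMod 2) 4
  have h1 : commutator O = siegelGroup qP :=
    commutator_eq_siegelGroup hQ (by simp) hg
  rw [Nat.card_congr (((commutatorCongr (isoMat qP (qPlus_apply 4))).trans
    (MulEquiv.subgroupCongr h1)).toEquiv), mul_comm,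
    card_siegelGroup_even (by decide) hQ hn hg]

/-- Coordinates of the extraspecial group transported to `G`. -/
theorem transport {z : G} (Q : Subgroup (Subgroup.centralizer ({z} : Set G))) (Qf : Subgroup G)
    (hmem : ∀ {c : G}, c ∈ Qf ↔ ∃ hc : c ∈ Subgroup.centralizer ({z} : Set G),
      (⟨c, hc⟩ : Subgroup.centralizer ({z} : Set G)) ∈ Q)
    (hgood : Good Qf z) {ι : Type} (π : ↥Q → ι → ZMod 2) (h1 : ∀ a b, π (a * b) = π a + π b)
    (h2 : Function.Surjective π) (h3 : ∀ a, π a = 0 ↔ a ∈ Subgroup.center ↥Q)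
    (qq : (ι → ZMod 2) → ZMod 2) (h4 : ∀ a, a * a = 1 ↔ qq (π a) = 0) :
    ∃ θ : G → ι → ZMod 2, (∀ x ∈ Qf, ∀ y ∈ Qf, θ (x * y) = θ x + θ y) ∧
      (∀ v, ∃ x ∈ Qf, θ x = v) ∧ (∀ x ∈ Qf, θ x = 0 ↔ x = 1 ∨ x = z) ∧
      (∀ x ∈ Qf, x * x = 1 ↔ qq (θ x) = 0) := by
  classical
  let θ : G → ι → ZMod 2 := fun c =>
    if hc : ∃ hc : c ∈ Subgroup.centralizer ({z} : Set G),
        (⟨c, hc⟩ : Subgroup.centralizer ({z} : Set G)) ∈ Q then π ⟨⟨c, hc.1⟩, hc.2⟩ else 0
  have hθ : ∀ a : ↥Q, θ ((a : ↥(Subgroup.centralizer ({z} : Set G))) : G) = π a := fun a => by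
    simp only [θ, dif_pos (show ∃ hc, _ from ⟨a.1.2, a.2⟩)]
  have hlift : ∀ x ∈ Qf, ∃ a : ↥Q, ((a : ↥(Subgroup.centralizer ({z} : Set G))) : G) = x :=
    fun x hx => ⟨⟨⟨x, (hmem.1 hx).1⟩, (hmem.1 hx).2⟩, rfl⟩
  refine ⟨θ, ?_, fun v => ?_, ?_, ?_⟩
  · intro x hx y hy
    obtain ⟨a, rfl⟩ := hlift x hx
    obtain ⟨b, rfl⟩ := hlift y hy
    rw [hθ, hθ, ← h1, ← hθ (a * b)]
    rfl
  · obtain ⟨a, rfl⟩ := h2 v
    exact ⟨_, hmem.2 ⟨a.1.2, a.2⟩, hθ a⟩
  · intro x hx
    obtain ⟨a, rfl⟩ := hlift x hx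
    rw [hθ, h3, Subgroup.mem_center_iff]
    constructor
    · intro hc
      refine hgood.center _ hx fun y hy => ?_
      obtain ⟨b, rfl⟩ := hlift y hy
      exact congrArg (fun t : ↥Q => ((t : ↥(Subgroup.centralizer ({z} : Set G))) : G)) (hc b)
    · rintro (h | h) b <;> apply Subtype.ext <;> apply Subtype.ext <;>
        simp only [Subgroup.coe_mul, h, one_mul, mul_one]
      exact Subgroup.mem_centralizer_singleton_iff.1 b.1.2
  · intro x hx
    obtain ⟨a, rfl⟩ := hlift x hx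
    rw [hθ, ← h4, Subtype.ext_iff, Subtype.ext_iff]
    rfl

/-- Coordinates of hyperbolic type. -/
theorem exists_coords (z : G) (hz : orderOf z = 2)
    (Q : Subgroup (Subgroup.centralizer ({z} : Set G))) [Q.Normal]
    (hF : Cfsg.generalizedFittingSubgroup (Subgroup.centralizer ({z} : Set G)) = Q)
    (hQ : Cfsg.IsExtraspecial 2 Q) (hcard : Nat.card Q = 2 ^ 9)
    (e : (Subgroup.centralizer ({z} : Set G)) ⧸ Q ≃*
      Cfsg.Omega (ZMod 2) (Cfsg.quadFormPlus 4 (ZMod 2))) :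
    ∃ (Qf : G → Subgroup G) (θ : G → V), CoreSetting Qf z ∧
      (∀ x ∈ Qf z, ∀ y ∈ Qf z, θ (x * y) = θ x + θ y) ∧ (∀ v, ∃ x ∈ Qf z, θ x = v) ∧
      (∀ x ∈ Qf z, θ x = 0 ↔ x = 1 ∨ x = z) ∧ (∀ x ∈ Qf z, x * x = 1 ↔ q (θ x) = 0) ∧
      ∀ c : G, c ∈ Qf z ↔ ∃ hc : c ∈ Subgroup.centralizer ({z} : Set G),
        (⟨c, hc⟩ : Subgroup.centralizer ({z} : Set G)) ∈ Q := by
  classical
  let Qf : G → Subgroup G := fun x => (Cfsg.pCore 2 ↥(Subgroup.centralizer ({x} : Set G))).map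
    (Subgroup.centralizer ({x} : Set G)).subtype
  have : Fact (Nat.Prime 2) := ⟨Nat.prime_two⟩
  have hcore : Cfsg.pCore 2 ↥(Subgroup.centralizer ({z} : Set G)) = Q :=
    le_antisymm (hF ▸ CfsgLib.Cores.pCore_le_generalizedFittingSubgroup 2)
      (CfsgLib.Cores.le_pCore hQ.1.1)
  have hQz : Qf z = Q.map (Subgroup.centralizer ({z} : Set G)).subtype := by
    show Subgroup.map _ (Cfsg.pCore 2 _) = _
    rw [hcore]
  have hmem : ∀ {c : G}, c ∈ Qf z ↔ ∃ hc : c ∈ Subgroup.centralizer ({z} : Set G),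
      (⟨c, hc⟩ : Subgroup.centralizer ({z} : Set G)) ∈ Q := by
    intro c
    rw [hQz]
    constructor
    · rintro ⟨⟨a, ha⟩, h, rfl⟩; exact ⟨ha, h⟩
    · rintro ⟨hc, h⟩; exact ⟨⟨c, hc⟩, h, rfl⟩
  have hzC : z ∈ Subgroup.centralizer ({z} : Set G) := Subgroup.mem_centralizer_singleton_iff.2 rfl
  have hcenQ : Subgroup.centralizer (Q : Set ↥(Subgroup.centralizer ({z} : Set G))) ≤ Q := by
    conv_rhs => rw [← hF]
    rw [← hF]
    exact CfsgLib.Cores.centralizer_generalizedFittingSubgroup_le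
  have hzQ : (⟨z, hzC⟩ : ↥(Subgroup.centralizer ({z} : Set G))) ∈ Q :=
    hcenQ (Subgroup.mem_centralizer_iff.2 fun a _ =>
      Subtype.ext (Subgroup.mem_centralizer_singleton_iff.1 a.2))
  have core : CoreSetting Qf z := by
    refine ⟨fun _ => rfl, hz, ?_, ?_⟩
    · rw [hQz]
      exact CfsgLib.PGroups.IsExtraspecial.of_mulEquiv (Subgroup.equivMapOfInjective _ _
        (Subgroup.subtype_injective _)) hQ
    · intro a ha
      have hzq : z ∈ Qf z := hmem.2 ⟨hzC, hzQ⟩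
      have haC : a ∈ Subgroup.centralizer ({z} : Set G) :=
        Subgroup.mem_centralizer_singleton_iff.2 (Subgroup.mem_centralizer_iff.1 ha z hzq).symm
      refine hmem.2 ⟨haC, hcenQ (Subgroup.mem_centralizer_iff.2 fun b hb => Subtype.ext ?_)⟩
      exact Subgroup.mem_centralizer_iff.1 ha b (hmem.2 ⟨b.2, hb⟩)
  have hgood := core.good
  obtain ⟨m, -, hm9, hcoord⟩ := CfsgLib.Fischer2.ExtraspecialOut.exists_hasCoord (E := ↥Q) hQ
  have hm : m = 4 := by
    rw [hcard] at hm9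
    have := Nat.pow_right_injective le_rfl hm9
    omega
  subst hm
  rcases hcoord with ⟨⟨π, h1, h2, h3, h4⟩, -⟩ | ⟨⟨π, h1, h2, h3, h4⟩, -⟩
  · obtain ⟨θ, t1, t2, t3, t4⟩ := transport Q (Qf z) hmem hgood π h1 h2 h3 _ h4
    exact ⟨Qf, θ, core, t1, t2, t3,
      fun x hx => by rw [← qP_apply, qPlus_apply]; exact t4 x hx, fun c => hmem⟩
  · exfalso
    obtain ⟨θ, t1, t2, t3, t4⟩ := transport Q (Qf z) hmem hgood π h1 h2 h3 _ h4
    obtain ⟨r, -, hr⟩ := exists_action (qMinus 3 (ZMod 2) 1 1) core θ t1 t2 t3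
      (fun x hx => by rw [qMinus_apply]; exact t4 x hx)
    have hker : (Qf z).subgroupOf (Subgroup.centralizer ({z} : Set G)) = Q := by
      ext c
      rw [Subgroup.mem_subgroupOf]
      exact ⟨fun h => (hmem.1 h).2, fun h => hmem.2 ⟨c.2, h⟩⟩
    have hd := Subgroup.card_subgroup_dvd_card r.range
    rw [← Subgroup.index_ker, hr, hker, Subgroup.index_eq_card, Nat.card_congr e.toEquiv,
      card_O_values.2] at hd
    have h8 := card_Omega
    rw [card_O_values.1] at h8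
    rw [show Nat.card (Cfsg.Omega (ZMod 2) (Cfsg.quadFormPlus 4 (ZMod 2))) = 174182400 by omega] at hd
    norm_num at hd

/-- Five elliptic points in a small space. -/
def smallP : Fin 5 → ((Fin 1 ⊕ Fin 1) ⊕ Fin 2) → ZMod 2 :=
  ![Sum.elim (Sum.elim ![1] ![0]) ![0, 0], Sum.elim (Sum.elim ![0] ![1]) ![0, 0],
    Sum.elim (Sum.elim ![1] ![1]) ![1, 0], Sum.elim (Sum.elim ![1] ![1]) ![0, 1],
    Sum.elim (Sum.elim ![1] ![1]) ![1, 1]]

theorem smallP_facts : ∀ i j : Fin 5, Cfsg.quadFormMinus 1 (ZMod 2) 1 1 (smallP i) = 0 ∧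
    (i ≠ j → Cfsg.quadFormMinus 1 (ZMod 2) 1 1 (smallP i + smallP j) = 1) := by
  decide +kernel

theorem smallP_radical : ∀ p : ((Fin 1 ⊕ Fin 1) ⊕ Fin 2) → ZMod 2,
    (∀ i : Fin 4, Cfsg.quadFormMinus 1 (ZMod 2) 1 1 (p + smallP i.castSucc) =
      Cfsg.quadFormMinus 1 (ZMod 2) 1 1 p) → p = 0 := by
  decide +kernel

/-- The setting. -/
theorem exists_setting (z : G) (hz : orderOf z = 2)
    (Q : Subgroup (Subgroup.centralizer ({z} : Set G))) [Q.Normal]
    (hF : Cfsg.generalizedFittingSubgroup (Subgroup.centralizer ({z} : Set G)) = Q)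
    (hQ : Cfsg.IsExtraspecial 2 Q) (hcard : Nat.card Q = 2 ^ 9)
    (e : (Subgroup.centralizer ({z} : Set G)) ⧸ Q ≃*
      Cfsg.Omega (ZMod 2) (Cfsg.quadFormPlus 4 (ZMod 2)))
    (b : Subgroup.centralizer ({z} : Set G)) (hb : orderOf b = 5)
    (U : Subgroup (Subgroup.centralizer ({z} : Set G)))
    (hU : ∀ x, x ∈ U ↔ x ∈ Q ∧ x * b = b * x)
    (hUx : Cfsg.IsExtraspecial 2 ↥U) (hUcard : Nat.card ↥U = 32)
    (hminus : ∀ A : Subgroup (Subgroup.centralizer ({z} : Set G)), A ≤ U →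
      Cfsg.IsElementaryAbelian 2 A → Nat.card A ≤ 4) :
    ∃ (Qf : G → Subgroup G) (θ : G → V) (ρ : G → O) (J : Subgroup O),
      Setting z Qf θ ρ J (b : G) ∧ ∀ (c : G) (hc : c ∈ Subgroup.centralizer ({z} : Set G)),
        c ∈ Qf z ↔ (⟨c, hc⟩ : Subgroup.centralizer ({z} : Set G)) ∈ Q := by
  classical
  obtain ⟨Qf, θ₀, core, t1, t2, t3, t4, hmem⟩ := exists_coords z hz Q hF hQ hcard e
  have hgood := core.good
  obtain ⟨r₀, hact₀, -⟩ := exists_action qP core θ₀ t1 t2 t3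
    (fun x hx => by rw [qP_apply]; exact t4 x hx)
  set T : O := r₀ b with hTdef
  have hb5 : b ^ 5 = 1 := by rw [← hb]; exact pow_orderOf_eq_one b
  have hT5 : T ^ 5 = 1 := by rw [hTdef, ← map_pow, hb5, map_one]
  have hbz : (b : G) * z = z * b := Subgroup.mem_centralizer_singleton_iff.1 b.2
  have θ1 : θ₀ 1 = 0 := (t3 1 (one_mem _)).2 (Or.inl rfl)
  -- elements of `U`
  have hUQ : ∀ x : ↥U, ((x : Subgroup.centralizer ({z} : Set G)) : G) ∈ Qf z :=
    fun x => (hmem _).2 ⟨x.1.2, ((hU _).1 x.2).1⟩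
  have hUfix : ∀ x : ↥U,
      ap T (θ₀ ((x : Subgroup.centralizer ({z} : Set G)) : G)) =
        θ₀ ((x : Subgroup.centralizer ({z} : Set G)) : G) := by
    intro x
    rw [hTdef]
    refine (hact₀ b _ (hUQ x)).symm.trans ?_
    congr 1
    rw [mul_inv_eq_iff_eq_mul]
    exact (congrArg Subtype.val ((hU _).1 x.2).2).symm
  have hfixU : ∀ v, ap T v = v → ∃ x : ↥U,
      θ₀ ((x : Subgroup.centralizer ({z} : Set G)) : G) = v := by
    intro v hv
    obtain ⟨x, hx, rfl⟩ := t2 v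
    have e1 : θ₀ ((b : G) * x * (b : G)⁻¹) = θ₀ x := (hact₀ b x hx).trans hv
    have hcx : (b : G) * x * (b : G)⁻¹ ∈ Qf z := hgood.norm _ hbz x hx
    have e2 : (b : G) * x * (b : G)⁻¹ = x ∨ (b : G) * x * (b : G)⁻¹ = z * x := by
      have h0 : θ₀ ((b : G) * x * (b : G)⁻¹ * x⁻¹) = 0 := by
        have h' := t1 _ ((Qf z).mul_mem hcx ((Qf z).inv_mem hx)) x hx
        rw [inv_mul_cancel_right, e1] at h'
        exact right_eq_add.1 h'
      rcases (t3 _ ((Qf z).mul_mem hcx ((Qf z).inv_mem hx))).1 h0 with a | a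
      · exact Or.inl (mul_inv_eq_one.1 a)
      · exact Or.inr (mul_inv_eq_iff_eq_mul.1 a)
    have e3 : (b : G) * x * (b : G)⁻¹ = x := by
      rcases e2 with a | a
      · exact a
      exfalso
      have hbk : ∀ k : ℕ, (b : G) ^ k * x * ((b : G) ^ k)⁻¹ = z ^ k * x := by
        intro k
        induction k with
        | zero => simp
        | succ k ih =>
          calc (b : G) ^ (k + 1) * x * ((b : G) ^ (k + 1))⁻¹
              = (b : G) * ((b : G) ^ k * x * ((b : G) ^ k)⁻¹) * (b : G)⁻¹ := by rw [pow_succ']; group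
            _ = ((b : G) * z ^ k * (b : G)⁻¹) * ((b : G) * x * (b : G)⁻¹) := by rw [ih]; group
            _ = z ^ (k + 1) * x := by
              rw [a, conj_fix_iff.2 ((show Commute (b : G) z from hbz).pow_right k).eq, pow_succ,
                mul_assoc]
      have h5 := hbk 5
      rw [show (b : G) ^ 5 = 1 from congrArg Subtype.val hb5,
        show z ^ 5 = z by rw [pow_succ, show (4 : ℕ) = 2 * 2 from rfl, pow_mul, pow_two z, hgood.sq_u,
          one_pow, one_mul]] at h5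
      simp only [one_mul, inv_one, mul_one] at h5
      exact hgood.ne_one (right_eq_mul.1 h5)
    obtain ⟨hxC, hxQ⟩ := (hmem x).1 hx
    exact ⟨⟨⟨x, hxC⟩, (hU _).2 ⟨hxQ, Subtype.ext (mul_inv_eq_iff_eq_mul.1 e3).symm⟩⟩, rfl⟩
  have hUθ : ∀ x y : ↥U, θ₀ (((x * y : ↥U) : Subgroup.centralizer ({z} : Set G)) : G) =
      θ₀ ((x : Subgroup.centralizer ({z} : Set G)) : G) +
        θ₀ ((y : Subgroup.centralizer ({z} : Set G)) : G) :=
    fun x y => t1 _ (hUQ x) _ (hUQ y)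
  have hUsq : ∀ x : ↥U, x * x = 1 ↔
      q (θ₀ ((x : Subgroup.centralizer ({z} : Set G)) : G)) = 0 := fun x => by
    rw [← t4 _ (hUQ x), Subtype.ext_iff, Subtype.ext_iff]
    rfl
  -- the coordinates of `U` are elliptic
  obtain ⟨mU, -, hmU, hcU⟩ := CfsgLib.Fischer2.ExtraspecialOut.exists_hasCoord (E := ↥U) hUx
  have hm : mU = 2 := by
    rw [hUcard, show (32 : ℕ) = 2 ^ 5 from rfl] at hmU
    have := Nat.pow_right_injective le_rfl hmU
    omega
  subst hm
  have hcentral : ∀ x : ↥U, θ₀ ((x : Subgroup.centralizer ({z} : Set G)) : G) = 0 →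
      x ∈ Subgroup.center ↥U := by
    intro x hx
    rw [Subgroup.mem_center_iff]
    intro y
    refine Subtype.ext (Subtype.ext ?_)
    show ((y.1 : Subgroup.centralizer ({z} : Set G)) : G) * x.1 = x.1 * (y.1 : G)
    rcases (t3 _ (hUQ x)).1 hx with a | a <;> rw [a]
    · simp
    · exact hgood.comm _ (hUQ y)
  have hzC : z ∈ Subgroup.centralizer ({z} : Set G) := Subgroup.mem_centralizer_singleton_iff.2 rfl
  have hzU : (⟨z, hzC⟩ : Subgroup.centralizer ({z} : Set G)) ∈ U :=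
    (hU _).2 ⟨((hmem z).1 hgood.mem).2, Subtype.ext hbz.symm⟩
  have hcenz : ∀ x : ↥U, x ∈ Subgroup.center ↥U →
      θ₀ ((x : Subgroup.centralizer ({z} : Set G)) : G) = 0 := by
    intro x hx
    refine (t3 _ (hUQ x)).2 (Classical.or_iff_not_imp_left.2 fun hx1 => ?_)
    obtain ⟨w0, -, huniq⟩ := (Nat.card_eq_two_iff' (1 : Subgroup.center ↥U)).1 hUx.2
    have hzc : (⟨⟨z, hzC⟩, hzU⟩ : ↥U) ∈ Subgroup.center ↥U :=
      hcentral _ ((t3 z hgood.mem).2 (Or.inr rfl))
    have a := huniq ⟨x, hx⟩ fun a => hx1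
      (congrArg (fun t : Subgroup.center ↥U => (((t : ↥U) : Subgroup.centralizer ({z} : Set G)) : G)) a)
    have a' := huniq ⟨_, hzc⟩ fun a => hgood.ne_one
      (congrArg (fun t : Subgroup.center ↥U => (((t : ↥U) : Subgroup.centralizer ({z} : Set G)) : G)) a)
    exact congrArg (fun t : Subgroup.center ↥U => (((t : ↥U) : Subgroup.centralizer ({z} : Set G)) : G))
      (a.trans a'.symm)
  rcases hcU with ⟨⟨π, p1, p2, p3, p4⟩, -⟩ | ⟨⟨π, p1, p2, p3, p4⟩, -⟩
  · -- a totally singular line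
    exfalso
    obtain ⟨u, hu⟩ := p2 (Sum.elim ![1, 0] ![0, 0])
    obtain ⟨u', hu'⟩ := p2 (Sum.elim ![0, 1] ![0, 0])
    let α := θ₀ ((u : Subgroup.centralizer ({z} : Set G)) : G)
    let α' := θ₀ ((u' : Subgroup.centralizer ({z} : Set G)) : G)
    have hne : ∀ x : ↥U, π x ≠ 0 → θ₀ ((x : Subgroup.centralizer ({z} : Set G)) : G) ≠ 0 :=
      fun x hx e0 => hx ((p3 x).2 (hcentral x e0))
    have hsq : ∀ x : ↥U, Cfsg.quadFormPlus 2 (ZMod 2) (π x) = 0 →
        q (θ₀ ((x : Subgroup.centralizer ({z} : Set G)) : G)) = 0 :=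
      fun x hx => (hUsq x).1 ((p4 x).2 hx)
    have q1 : q α = 0 := hsq u (by rw [hu]; decide)
    have q2 : q α' = 0 := hsq u' (by rw [hu']; decide)
    have q3 : q (α + α') = 0 := by
      rw [← hUθ]; exact hsq _ (by rw [p1, hu, hu']; decide)
    have n1 : α ≠ 0 := hne u (by rw [hu]; decide)
    have n2 : α' ≠ 0 := hne u' (by rw [hu']; decide)
    have n3 : α + α' ≠ 0 := by
      rw [← hUθ]; exact hne _ (by rw [p1, hu, hu']; decide)
    let w : ZMod 2 × ZMod 2 → V := fun p => p.1 • α + p.2 • α'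
    have hw : ∀ p p', w (p + p') = w p + w p' := fun p p' => by
      simp only [w, Prod.fst_add, Prod.snd_add, add_smul]; abel
    have hwq : ∀ p, q (w p) = 0 := by
      rintro ⟨s, t⟩
      rcases z2_cases s with rfl | rfl <;> rcases z2_cases t with rfl | rfl <;> simp [w, q1, q2, q3]
    have hw0 : ∀ p, w p = 0 → p = 0 := by
      rintro ⟨s, t⟩
      rcases z2_cases s with rfl | rfl <;> rcases z2_cases t with rfl | rfl <;> simp [w, n1, n2, n3]
    have hwinj : Function.Injective w := by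
      intro p p' ee
      have h0 : w (p + p') = 0 := by rw [hw, ee, vadd_self]
      exact CharTwo.add_eq_zero.1 (hw0 _ h0)
    let L : Subgroup (Subgroup.centralizer ({z} : Set G)) :=
      { carrier := {x | x ∈ U ∧ ∃ p, θ₀ (x : G) = w p}
        one_mem' := ⟨U.one_mem, 0, by simp [w, θ1]⟩
        mul_mem' := fun {x y} ⟨hx, p, hp⟩ ⟨hy, p', hp'⟩ => ⟨U.mul_mem hx hy, p + p', by
          rw [hw, ← hp, ← hp']; exact hUθ ⟨x, hx⟩ ⟨y, hy⟩⟩
        inv_mem' := fun {x} ⟨hx, p, hp⟩ => ⟨U.inv_mem hx, p, by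
          have h' := hUθ ⟨x, hx⟩ ⟨x, hx⟩⁻¹
          rw [mul_inv_cancel] at h'
          exact ((vadd_eq_zero.1 (h'.symm.trans θ1)).symm).trans hp⟩ }
    have hLsq : ∀ x ∈ L, x * x = 1 := by
      rintro x ⟨hx, p, hp⟩
      exact congrArg Subtype.val ((hUsq ⟨x, hx⟩).2 (by rw [hp]; exact hwq p))
    have hLab : Cfsg.IsElementaryAbelian 2 L := by
      refine ⟨⟨⟨fun x y => Subtype.ext ?_⟩⟩, fun x hx => by rw [pow_two]; exact hLsq x hx⟩
      have hi : ∀ x ∈ L, x⁻¹ = x := fun x hx => inv_eq_of_mul_eq_one_right (hLsq x hx)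
      show (x : Subgroup.centralizer ({z} : Set G)) * y = y * x
      calc (x : Subgroup.centralizer ({z} : Set G)) * y
          = ((x : Subgroup.centralizer ({z} : Set G)) * y)⁻¹ := (hi _ (L.mul_mem x.2 y.2)).symm
        _ = _ := by rw [mul_inv_rev, hi _ x.2, hi _ y.2]
    let lift : ZMod 2 × ZMod 2 → ↥U := fun p =>
      (if p.1 = 0 then 1 else u) * (if p.2 = 0 then 1 else u')
    have hlift : ∀ p, θ₀ ((lift p : Subgroup.centralizer ({z} : Set G)) : G) = w p := by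
      rintro ⟨s, t⟩
      rw [hUθ]
      rcases z2_cases s with rfl | rfl <;> rcases z2_cases t with rfl | rfl <;> simp [w, α, α', θ1]
    have hfin : 8 ≤ Nat.card L := by
      let F : (ZMod 2 × ZMod 2) × Bool → L := fun p =>
        ⟨if p.2 then ⟨z, hzC⟩ * (lift p.1).1 else (lift p.1).1, by
          split_ifs
          · refine L.mul_mem ⟨hzU, 0, ?_⟩ ⟨(lift p.1).2, p.1, hlift _⟩
            simpa [w] using (t3 z hgood.mem).2 (Or.inr rfl)
          · exact ⟨(lift p.1).2, p.1, hlift _⟩⟩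
      have hzθ : ∀ x : ↥U, θ₀ (z * ((x : Subgroup.centralizer ({z} : Set G)) : G)) =
          θ₀ ((x : Subgroup.centralizer ({z} : Set G)) : G) := fun x => by
        rw [t1 z hgood.mem _ (hUQ x), (t3 z hgood.mem).2 (Or.inr rfl), zero_add]
      have hF : Function.Injective F := by
        rintro ⟨p, k⟩ ⟨p', k'⟩ ee
        have ee' := congrArg (fun t : L => ((t.1 : Subgroup.centralizer ({z} : Set G)) : G)) ee
        have hp : p = p' := hwinj (by
          have := congrArg θ₀ ee'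
          cases k <;> cases k' <;> simpa [F, hzθ, hlift] using this)
        subst hp
        cases k <;> cases k' <;> simp [F] at ee' ⊢
        · exact hgood.ne_one ee'
        · exact hgood.ne_one ee'
      have hle := Nat.card_le_card_of_injective F hF
      simpa using hle
    have := hminus L (fun x hx => hx.1) hLab
    omega
  -- the elliptic case
  choose u hu using fun i => p2 (smallP i)
  let α : Fin 5 → V := fun i => θ₀ ((u i : Subgroup.centralizer ({z} : Set G)) : G)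
  have hπq : ∀ x : ↥U, q (θ₀ ((x : Subgroup.centralizer ({z} : Set G)) : G)) =
      Cfsg.quadFormMinus 1 (ZMod 2) 1 1 (π x) := by
    intro x
    have h01 : ∀ s t : ZMod 2, (s = 0 ↔ t = 0) → s = t := by decide
    exact h01 _ _ ((hUsq x).symm.trans (p4 x))
  have hH : IsHalfFrame α := by
    have hqa : ∀ i, q (α i) = 0 := fun i => by
      rw [hπq, hu]; exact (smallP_facts i i).1
    refine ⟨hqa, fun i j => ?_⟩
    by_cases hij : i = j
    · rw [hij, if_pos rfl, bl_self]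
    · rw [if_neg hij]
      have h' : q (α i + α j) = 1 := by
        rw [← hUθ, hπq, p1, hu, hu]; exact (smallP_facts i j).2 hij
      rw [q_add, hqa, hqa, zero_add, zero_add] at h'
      exact h'
  have hTα : ∀ i, ap T (α i) = α i := fun i => hUfix _
  obtain ⟨γ, hγ, hγbl, hTγ⟩ := hH.exists_complement T hT5
    (fun w hw i => by rw [← hTα, bl_ap]; exact hw i) (fun w hw hfix => by
      obtain ⟨x, rfl⟩ := hfixU w hfix
      suffices π x = 0 from hcenz x ((p3 x).1 this)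
      refine smallP_radical _ fun i => ?_
      rw [← hu i.castSucc, ← p1, ← hπq, ← hπq, hUθ, q_add, hH.qP, hw i, add_zero, add_zero])
  have hFr : IsFrames α γ := ⟨hH.qP, fun i => (hγ i).2, hH.blP, hγbl, fun i j => by
    rcases fin5_cases i with rfl | ⟨k, rfl⟩
    · -- the fifth vector is the sum of the first four
      have hw : α 4 + cmb α (coP α (α 4)) = 0 := by
        have hperp := hH.perp_rest (α 4)
        have hfix : ap T (α 4 + cmb α (coP α (α 4))) = α 4 + cmb α (coP α (α 4)) := by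
          rw [ap_add, hTα, ap_cmb, funext hTα]
        obtain ⟨x, hx⟩ := hfixU _ hfix
        rw [← hx] at hperp ⊢
        exact hcenz x ((p3 x).1 (smallP_radical _ fun k => by
          rw [← hu k.castSucc, ← p1, ← hπq, ← hπq, hUθ, q_add, hH.qP, hperp k, add_zero, add_zero]))
      rw [vadd_eq_zero.1 hw]
      exact IsHalfFrame.bl_cmb_perp _ (hγ j).1
    · rw [bl_comm]; exact (hγ j).1 k⟩
  let M := frameO α γ hFr
  let θ : G → V := fun x => ap M⁻¹ (θ₀ x)
  have s1 : ∀ x ∈ Qf z, ∀ y ∈ Qf z, θ (x * y) = θ x + θ y := fun x hx y hy => by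
    simp only [θ, t1 x hx y hy, ap_add]
  have s2 : ∀ v, ∃ x ∈ Qf z, θ x = v := fun v => by
    obtain ⟨x, hx, e0⟩ := t2 (ap M v)
    exact ⟨x, hx, by simp only [θ, e0, ap_inv_ap]⟩
  have s3 : ∀ x ∈ Qf z, θ x = 0 ↔ x = 1 ∨ x = z := fun x hx => by
    rw [← t3 x hx]
    exact ⟨fun e0 => ap_inj M⁻¹ (e0.trans (ap_zero M⁻¹).symm), fun e0 => by simp only [θ, e0, ap_zero]⟩
  have s4 : ∀ x ∈ Qf z, x * x = 1 ↔ q (θ x) = 0 := fun x hx => by
    simp only [θ, q_ap]; exact t4 x hx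
  obtain ⟨r, hact, hr⟩ := exists_action qP core θ s1 s2 s3 (fun x hx => by rw [qP_apply]; exact s4 x hx)
  let ρ : G → O := fun c => if hc : c ∈ Subgroup.centralizer ({z} : Set G) then r ⟨c, hc⟩ else 1
  have hρ : ∀ (c : G) (hc : c * z = z * c),
      ρ c = r ⟨c, Subgroup.mem_centralizer_singleton_iff.2 hc⟩ := fun c hc => by
    simp only [ρ, dif_pos (Subgroup.mem_centralizer_singleton_iff.2 hc)]
  have hker : (Qf z).subgroupOf (Subgroup.centralizer ({z} : Set G)) = Q := by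
    ext c
    rw [Subgroup.mem_subgroupOf]
    exact ⟨fun h => ((hmem _).1 h).2, fun h => (hmem _).2 ⟨c.2, h⟩⟩
  have hrb : ∀ v, ap (r b) v = ap M⁻¹ (ap T (ap M v)) := by
    intro v
    obtain ⟨x, hx, rfl⟩ := s2 v
    rw [show ap M (θ x) = θ₀ x from ap_ap_inv M _, hTdef]
    exact (hact b x hx).symm.trans (congrArg (ap M⁻¹) (hact₀ b x hx))
  have hsh : ∀ i, γ (i + 1) = γ (sh i) := fun i => by rw [sh_apply]
  refine ⟨Qf, θ, ρ, r.range, ⟨core, s1, s2, s3, s4, ?_, ?_, ?_, ?_, ?_, ?_,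
    (Subgroup.orderOf_coe b).trans hb, hbz, ?_⟩,
    fun c hc => ⟨fun h => ((hmem c).1 h).2, fun h => (hmem c).2 ⟨hc, h⟩⟩⟩
  · intro c hc x hx
    rw [hρ c hc]
    exact hact ⟨c, _⟩ x hx
  · intro c d hc hd
    rw [hρ c hc, hρ d hd, hρ (c * d) ((show Commute c z from hc).mul_left hd).eq, ← map_mul]
    rfl
  · intro c hc
    rw [hρ c hc]
    exact ⟨_, rfl⟩
  · rintro _ ⟨c, rfl⟩
    have hc := Subgroup.mem_centralizer_singleton_iff.1 c.2
    exact ⟨c, hc, hρ _ hc⟩
  · intro c hc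
    rw [hρ c hc, ← MonoidHom.mem_ker, hr, Subgroup.mem_subgroupOf]
  · show 2 * Nat.card r.range = Nat.card O
    rw [← Subgroup.index_ker, hr, hker, Subgroup.index_eq_card, Nat.card_congr e.toEquiv]
    exact card_Omega
  · rw [hρ _ hbz]
    refine O_ext (fun i => ?_) fun i => ?_
    · rw [hrb, E_A, frameO_A, hTα, ← frameO_A hFr i, ap_inv_ap]; rfl
    · rw [hrb, E_Cc, frameO_Cc, hTγ, hsh, ← frameO_Cc hFr (sh i), ap_inv_ap]

end CfsgLib.ConwayFive
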