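import Cfsg.Agent.Lib.ConwayFive.Split

/-!
An involution of `K0` outside the extraspecial group is not conjugate to `z` under the centraliser of
`b`.
-/

set_option autoImplicit false
set_option linter.unusedSectionVars false
set_option linter.style.haveILetI false
set_option maxRecDepth 100000
set_option synthInstance.maxSize 1000

namespace CfsgLib.ConwayFive

open CfsgLib.SuzukiType (conj_fix_iff)

/-- A permutation of the first frame acting on the space. -/
def actA (σ : Equiv.Perm (Fin 5)) (v : V) : V := cmb (A ∘ σ) (coA v) + cmb Cc (coC v)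

theorem ap_E_actA (σ : Equiv.Perm (Fin 5)) (v : V) : ap (E σ 1) v = actA σ v := rfl

theorem moved_inA : ∀ σ : alternatingGroup (Fin 5), σ * σ = 1 → σ ≠ 1 →
    (σ : Equiv.Perm (Fin 5)) 0 = 0 → ∀ v : V, inA (v + actA (σ : Equiv.Perm (Fin 5)) v) := by
  simp only [forall_vec]; decide +kernel

theorem fixed_inA : ∀ σ : alternatingGroup (Fin 5), σ * σ = 1 → σ ≠ 1 →
    (σ : Equiv.Perm (Fin 5)) 0 = 0 → ∀ v : V, inA v → actA (σ : Equiv.Perm (Fin 5)) v = v →
      (∃ x : Fin 4 → ZMod 2, cmb A x + actA (σ : Equiv.Perm (Fin 5)) (cmb A x) = v) ∧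
        (q v = 0 → v = 0 ∨ v = A 0) ∧ bl v (A 0) = 0 := by
  simp only [forall_vec]; decide +kernel

theorem card_inC : Fintype.card {v : V // inC v} = 16 := by
  rw [Fintype.card_subtype]; decide +kernel

theorem alg4 : ∀ a p r s : ZMod 2, s = a + (p + a) + (r + a) + ((s + p) + (r + a)) := by decide

theorem alg (a p r s : V) : s = a + (p + a) + (r + a) + ((s + p) + (r + a)) :=
  funext fun i => alg4 (a i) (p i) (r i) (s i)

/-- The five-cycle on the space. -/
def shC (v : V) : V := cmb A (coA v) + cmb (Cc ∘ sh) (coC v)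

theorem ap_E_shC (v : V) : ap (E 1 sh) v = shC v := rfl

theorem orbit_span : ∀ v : V, inC v → v ≠ 0 → ∀ i : Fin 5, ∃ e0 e1 e2 e3 : ZMod 2,
    e0 • v + e1 • shC v + e2 • shC (shC v) + e3 • shC (shC (shC v)) = Cc i := by
  simp only [forall_vec]; decide +kernel

theorem inC_cmb : ∀ x : Fin 4 → ZMod 2, inC (cmb Cc x) := by decide +kernel

theorem split_rest (v : V) : v + cmb Cc (coC v) = cmb A (coA v) := by
  conv_lhs => arg 1; rw [← decomp v]
  rw [add_assoc, vadd_self, add_zero]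

theorem inA_cmb : ∀ x : Fin 4 → ZMod 2, inA (cmb A x) := by decide +kernel

variable {G : Type*} [Group G] [Finite G]
variable {z : G} {Qf : G → Subgroup G} {θ : G → V} {ρ : G → O} {J : Subgroup O} {b : G}

namespace Setting

variable (S : Setting z Qf θ ρ J b)
include S

theorem W_isPGroup : IsPGroup 2 S.W := fun w => ⟨2, Subtype.ext (by
  show (w : G) ^ 4 = 1
  rw [show (4 : ℕ) = 2 * 2 from rfl, pow_mul, pow_two (w : G)]
  rcases S.good.sq _ w.2.1 with e | e <;> rw [e]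
  · simp
  · rw [pow_two]; exact S.z_sq)⟩

theorem b_conj_W {w : G} (hw : w ∈ S.W) : b * w * b⁻¹ ∈ S.W := S.conj_W S.b_comm S.ρ_b hw

/-- A homomorphism of `W` invariant under `b` is trivial. -/
theorem hom_W_trivial {M : Type*} [Group M] (f : ↥S.W →* M)
    (hf : ∀ w : ↥S.W, f ⟨b * (w : G) * b⁻¹, S.b_conj_W w.2⟩ = f w) : ∀ w, f w = 1 := by
  classical
  choose c hc hcθ using fun i => S.exists_W (inC_Cc i)
  have hzf : f ⟨z, S.z_mem_W⟩ = f ⟨c 0, hc 0⟩ * f ⟨c 1, hc 1⟩ * (f ⟨c 0, hc 0⟩)⁻¹ * (f ⟨c 1, hc 1⟩)⁻¹ := by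
    rw [← map_mul, ← map_inv, ← map_mul, ← map_inv, ← map_mul]
    congr 1
    refine Subtype.ext ?_
    show z = c 0 * c 1 * (c 0)⁻¹ * (c 1)⁻¹
    rw [S.conj_eq_z (hc 0).1 (hc 1).1 (by rw [hcθ, hcθ]; exact (A_rel 0 1).2.2.2.2), mul_inv_cancel_right]
  have hstep : ∀ i, f ⟨c (i + 1), hc _⟩ = f ⟨c i, hc i⟩ ∨
      f ⟨c (i + 1), hc _⟩ = f ⟨z, S.z_mem_W⟩ * f ⟨c i, hc i⟩ := by
    intro i
    have he : θ (c (i + 1)) = θ (b * c i * b⁻¹) := by
      rw [S.ρ_act b S.b_comm _ (hc i).1, S.ρ_b, hcθ, hcθ, E_Cc, sh_apply]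
    rcases S.eq_or_of_θ (hc (i + 1)).1 (S.conj_mem_Q S.b_comm (hc i).1) he with e | e
    · exact Or.inl (by rw [← hf ⟨c i, hc i⟩]; exact congrArg f (Subtype.ext e))
    · exact Or.inr (by rw [← hf ⟨c i, hc i⟩, ← map_mul]; exact congrArg f (Subtype.ext e))
  set m := f ⟨c 0, hc 0⟩ with hm
  have hcomm : ∀ i, Commute m (f ⟨c i, hc i⟩) → Commute m (f ⟨z, S.z_mem_W⟩) →
      Commute m (f ⟨c (i + 1), hc _⟩) := fun i h1 h2 => by
    rcases hstep i with e | e <;> rw [e]
    exacts [h1, h2.mul_right h1]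
  have hzm : Commute m (f ⟨z, S.z_mem_W⟩) := by
    show f _ * f _ = f _ * f _
    rw [← map_mul, ← map_mul]
    exact congrArg f (Subtype.ext (S.comm_z (hc 0).1))
  have hz1 : f ⟨z, S.z_mem_W⟩ = 1 := by
    have h1 := hcomm 0 (Commute.refl m) hzm
    rw [zero_add] at h1
    rw [hzf, h1.eq, mul_inv_cancel_right, mul_inv_cancel]
  have hall : ∀ i, f ⟨c i, hc i⟩ = m := by
    intro i
    have hs : ∀ i, f ⟨c (i + 1), hc _⟩ = f ⟨c i, hc i⟩ := fun i => by
      rcases hstep i with e | e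
      · exact e
      · rw [e, hz1, one_mul]
    have h1 := hs 0
    have h2 := hs 1
    have h3 := hs 2
    have h4 := hs 3
    fin_cases i
    · rfl
    · exact h1
    · exact h2.trans h1
    · exact h3.trans (h2.trans h1)
    · exact h4.trans (h3.trans (h2.trans h1))
  have h2 : m * m = 1 := by
    rw [hm, ← map_mul, ← map_one f]
    exact congrArg f (Subtype.ext ((S.θ_sq _ (hc 0).1).2 (by rw [hcθ]; exact q_Cc 0)))
  have hm1 : m = 1 := by
    have hθ : θ (c 0) = θ (c 1 * c 2 * (c 3 * c 4)) := by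
      rw [S.θ_mul _ ((Qf z).mul_mem (hc 1).1 (hc 2).1) _ ((Qf z).mul_mem (hc 3).1 (hc 4).1),
        S.θ_mul _ (hc 1).1 _ (hc 2).1, S.θ_mul _ (hc 3).1 _ (hc 4).1, hcθ, hcθ, hcθ, hcθ, hcθ]
      exact Cc_pairs
    have hfe : m = f (⟨c 1, hc 1⟩ * ⟨c 2, hc 2⟩ * (⟨c 3, hc 3⟩ * ⟨c 4, hc 4⟩)) := by
      rcases S.eq_or_of_θ (hc 0).1 ((Qf z).mul_mem ((Qf z).mul_mem (hc 1).1 (hc 2).1)
        ((Qf z).mul_mem (hc 3).1 (hc 4).1)) hθ with e | e
      · exact congrArg f (Subtype.ext e)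
      · rw [← one_mul (f (⟨c 1, hc 1⟩ * _ * _)), ← hz1, ← map_mul]
        exact congrArg f (Subtype.ext e)
    rw [map_mul, map_mul, map_mul, hall, hall, hall, hall, h2, one_mul] at hfe
    exact hfe
  intro w
  have hle : S.W ≤ (f.ker.map S.W.subtype) := by
    refine S.W_le ⟨_, MonoidHom.mem_ker.2 hz1, rfl⟩ fun i => ⟨c i.castSucc, (hc _).1, ?_, hcθ _⟩
    exact ⟨⟨c i.castSucc, hc _⟩, MonoidHom.mem_ker.2 ((hall _).trans hm1), rfl⟩
  obtain ⟨w', hw', e⟩ := hle w.2
  rw [show w = w' from Subtype.ext e.symm]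
  exact MonoidHom.mem_ker.1 hw'

/-- The two classes. -/
theorem not_conj {t : G} {σ : alternatingGroup (Fin 5)} (htK : t ∈ S.K0) (htQ : t ∉ Qf z)
    (hρt : ρ t = E (σ : Equiv.Perm (Fin 5)) 1) (hσ2 : σ * σ = 1) (hσ1 : σ ≠ 1)
    (hσ0 : (σ : Equiv.Perm (Fin 5)) 0 = 0) {g : G} (hgb : g * b = b * g) : g * z * g⁻¹ ≠ t := by
  classical
  intro hg
  have htz := (S.mem_K0.1 htK).1
  have htb := S.K0_comm_b htK
  -- `g W g⁻¹` centralises `z`
  have hgi : g⁻¹ * b = b * g⁻¹ := ((show Commute g b from hgb).inv_left).eq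
  have hyz : (g⁻¹ * z * g) * z = z * (g⁻¹ * z * g) := by
    calc (g⁻¹ * z * g) * z = g⁻¹ * (z * (g * z * g⁻¹)) * g := by group
      _ = g⁻¹ * ((g * z * g⁻¹) * z) * g := by rw [hg, htz]
      _ = z * (g⁻¹ * z * g) := by group
  have hyb : (g⁻¹ * z * g) * b = b * (g⁻¹ * z * g) :=
    (((show Commute g⁻¹ b from hgi).mul_left (show Commute z b from S.b_comm.symm)).mul_left hgb).eq
  obtain ⟨k, k0, hk0, hk⟩ := S.split hyz hyb
  have hk1 : b ^ k = 1 := by
    have h2 : (g⁻¹ * z * g) * (g⁻¹ * z * g) = 1 := by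
      rw [show g⁻¹ * z * g * (g⁻¹ * z * g) = g⁻¹ * (z * z) * g by group, S.z_sq]; group
    rw [hk, show b ^ k * k0 * (b ^ k * k0) = b ^ k * (k0 * b ^ k) * k0 by group,
      ((show Commute k0 b from S.K0_comm_b hk0).pow_right k).eq,
      show b ^ k * (b ^ k * k0) * k0 = (b ^ k * b ^ k) * (k0 * k0) by group, ← pow_add] at h2
    have h3 : b ^ (k + k) = 1 := S.b_pow_mem_K0 (by
      rw [eq_inv_of_mul_eq_one_left h2]; exact S.K0.inv_mem (S.K0.mul_mem hk0 hk0))
    calc b ^ k = b ^ ((k + k) * 3) := by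
          rw [pow_eq_pow_mod k S.b_pow, pow_eq_pow_mod ((k + k) * 3) S.b_pow]; congr 1; omega
      _ = 1 := by rw [pow_mul, h3, one_pow]
  rw [hk1, one_mul] at hk
  have hWz : ∀ w ∈ S.W, (g * w * g⁻¹) * z = z * (g * w * g⁻¹) := by
    intro w hw
    have e := (S.mem_K0.1 hk0).2 w hw
    rw [← hk] at e
    calc (g * w * g⁻¹) * z = g * (w * (g⁻¹ * z * g)) * g⁻¹ := by group
      _ = g * ((g⁻¹ * z * g) * w) * g⁻¹ := by rw [e]
      _ = z * (g * w * g⁻¹) := by group
  have hbw : ∀ w : G, g * (b * w * b⁻¹) * g⁻¹ = b * (g * w * g⁻¹) * b⁻¹ := fun w => by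
    calc g * (b * w * b⁻¹) * g⁻¹ = (g * b) * w * (g * b)⁻¹ := by group
      _ = _ := by rw [hgb]; group
  let μ : ↥S.W →* O := MonoidHom.mk' (fun w => ρ (g * (w : G) * g⁻¹)) fun w w' => by
    rw [← S.ρ_mul _ _ (hWz w w.2) (hWz w' w'.2), Subgroup.coe_mul]; congr 1; group
  have hμb : ∀ w : ↥S.W, μ ⟨b * (w : G) * b⁻¹, S.b_conj_W w.2⟩ = E 1 sh * μ w * (E 1 sh)⁻¹ := by
    intro w
    show ρ (g * (b * (w : G) * b⁻¹) * g⁻¹) = _
    rw [hbw, S.ρ_mul _ _ (S.comm_z_mul S.b_comm (hWz w w.2)) (S.comm_z_inv S.b_comm),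
      S.ρ_mul _ _ S.b_comm (hWz w w.2), S.ρ_inv S.b_comm, S.ρ_b]
    rfl
  set T : O := ρ t with hT
  have hμT : ∀ w, μ w * T = T * μ w := by
    intro w
    show ρ _ * ρ t = ρ t * ρ _
    rw [← S.ρ_mul _ _ (hWz w w.2) htz, ← S.ρ_mul _ _ htz (hWz w w.2), ← hg]
    congr 1
    calc g * (w : G) * g⁻¹ * (g * z * g⁻¹) = g * ((w : G) * z) * g⁻¹ := by group
      _ = g * (z * w) * g⁻¹ := by rw [S.comm_z w.2.1]
      _ = _ := by group
  have hTap : ∀ v, ap T v = actA (σ : Equiv.Perm (Fin 5)) v := fun v => by rw [hρt]; exact ap_E_actA _ v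
  have hTT : ∀ v, ap T (ap T v) = v := fun v => by
    rw [← ap_mul, hρt, E_mul, one_mul, ← Subgroup.coe_mul, hσ2, OneMemClass.coe_one, E_one, ap_one]
  -- the fixed part of the first space
  let inS : V → Prop := fun v => inA v ∧ ap T v = v
  have hI : ∀ v, inS v → ∃ x, cmb A x + ap T (cmb A x) = v := fun v hv => by
    obtain ⟨x, hx⟩ := (fixed_inA σ hσ2 hσ1 hσ0 v hv.1 (by rw [← hTap]; exact hv.2)).1
    exact ⟨x, by rw [hTap]; exact hx⟩
  have hImg : ∀ u, inS (u + ap T u) := fun u =>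
    ⟨by rw [hTap]; exact moved_inA σ hσ2 hσ1 hσ0 u, by rw [ap_add, hTT, add_comm]⟩
  have hSinv : ∀ w v, inS v → inS (ap (μ w) v) := by
    intro w v hv
    obtain ⟨x, rfl⟩ := hI v hv
    rw [ap_add, ← ap_mul, hμT, ap_mul]
    exact hImg _
  have hbS : ∀ v, inS v → ap (E 1 sh) v = v := fun v hv => by
    rw [eq_cmb_of_inA hv.1, ap_cmb]
    simp only [E_A, Equiv.Perm.one_apply]
  let F : ↥S.W →* Function.End {v : V // inS v} :=
    { toFun := fun w v => ⟨ap (μ w) v.1, hSinv w v.1 v.2⟩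
      map_one' := funext fun v => Subtype.ext (by simp only [map_one]; rfl)
      map_mul' := fun w w' => funext fun v => Subtype.ext (by
        show ap (μ (w * w')) v.1 = ap (μ w) (ap (μ w') v.1)
        rw [map_mul, ap_mul]) }
  have hfixS : ∀ w v, inS v → ap (μ w) v = v := by
    intro w v hv
    have h1 := S.hom_W_trivial F.toHomUnits (fun w => Units.ext (funext fun u => Subtype.ext (by
      show ap (μ ⟨_, _⟩) u.1 = ap (μ w) u.1
      rw [hμb, ap_mul, ap_mul]
      have e1 : ap (E 1 sh)⁻¹ u.1 = u.1 := by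
        conv_lhs => rw [← hbS u.1 u.2]
        rw [ap_inv_ap]
      rw [e1, hbS _ (hSinv w u.1 u.2)]))) w
    have h2 : F w = 1 := congrArg (Units.val) h1
    exact congrArg Subtype.val (congrFun h2 ⟨v, hv⟩)
  -- the action on the second space
  have hfixC : ∀ v, inC v → ap T v = v := fun v hv => by
    rw [eq_cmb_of_inC hv, ap_cmb, hρt]
    simp only [E_Cc, Equiv.Perm.one_apply]
  have hTfix : ∀ w v, ap T v = v → ap T (ap (μ w) v) = ap (μ w) v := fun w v hv => by
    rw [← ap_mul, ← hμT, ap_mul, hv]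
  have hpart : ∀ v, ap T v = v → inS (v + cmb Cc (coC v)) := by
    intro v hv
    refine ⟨by rw [split_rest]; exact inA_cmb _, ?_⟩
    rw [ap_add, hv, hfixC _ (inC_cmb _)]
  let pC : V → V := fun v => cmb Cc (coC v)
  have hpC : ∀ v, inC v → pC v = v := fun v hv => (eq_cmb_of_inC hv).symm
  have hpC_add : ∀ u v, pC (u + v) = pC u + pC v := fun u v => by simp only [pC, coC_add, cmb_add]
  have hpC_S : ∀ v, inS v → pC v = 0 := fun v hv => by
    have : coC v = 0 := funext fun i => by simp [coC, hv.1 _]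
    simp [pC, this, cmb]
  have hμpC : ∀ w v, ap T v = v → pC (ap (μ w) (pC v)) = pC (ap (μ w) v) := by
    intro w v hv
    have e : ap (μ w) v = ap (μ w) (pC v) + (v + pC v) := by
      conv_rhs => rw [← hfixS w _ (hpart v hv), ← ap_add]
      congr 1
      rw [add_left_comm, vadd_self, add_zero]
    rw [e, hpC_add, hpC_S _ (hpart v hv), add_zero]
  letI : MulAction ↥S.W {v : V // inC v} :=
    { smul := fun w v => ⟨pC (ap (μ w) v.1), inC_cmb _⟩
      one_smul := fun v => Subtype.ext (by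
        show pC (ap (μ 1) v.1) = v.1
        rw [map_one, ap_one, hpC _ v.2])
      mul_smul := fun w w' v => Subtype.ext (by
        show pC (ap (μ (w * w')) v.1) = pC (ap (μ w) (pC (ap (μ w') v.1)))
        rw [hμpC w _ (hTfix w' _ (hfixC _ v.2)), map_mul, ap_mul]) }
  haveI : Fact (Nat.Prime 2) := ⟨Nat.prime_two⟩
  have h0fix : (⟨0, inC_zero⟩ : {v : V // inC v}) ∈ MulAction.fixedPoints ↥S.W {v : V // inC v} :=
    fun w => Subtype.ext (by
      show pC (ap (μ w) 0) = 0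
      rw [ap_zero, hpC _ inC_zero])
  obtain ⟨v₀, hv₀, hv₀ne⟩ := S.W_isPGroup.exists_fixed_point_of_prime_dvd_card_of_fixed_point
    {v : V // inC v} (by rw [Nat.card_eq_fintype_card, card_inC]; norm_num) h0fix
  let Fx : AddSubgroup V :=
    { carrier := {v | inC v ∧ ∀ w, pC (ap (μ w) v) = v}
      zero_mem' := ⟨inC_zero, fun w => by rw [ap_zero, hpC _ inC_zero]⟩
      add_mem' := fun {u v} ⟨hu, hu'⟩ ⟨hv, hv'⟩ =>
        ⟨inC_add hu hv, fun w => by rw [ap_add, hpC_add, hu', hv']⟩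
      neg_mem' := fun {v} hv => by
        rw [show -v = v from funext fun i => CharTwo.neg_eq (v i)]; exact hv }
  have hFxsh : ∀ v, v ∈ Fx → shC v ∈ Fx := by
    rintro v ⟨hv, hv'⟩
    rw [← ap_E_shC]
    refine ⟨inC_E hv, fun w => ?_⟩
    obtain ⟨w', hw', rfl⟩ : ∃ w' : G, ∃ h : w' ∈ S.W, (⟨b * w' * b⁻¹, S.b_conj_W h⟩ : ↥S.W) = w := by
      refine ⟨b⁻¹ * (w : G) * b, ?_, Subtype.ext (by group)⟩
      have := S.conj_W (S.comm_z_inv S.b_comm) (by rw [S.ρ_inv S.b_comm, S.ρ_b, E_inv]) w.2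
      rwa [inv_inv] at this
    rw [hμb ⟨w', hw'⟩, ap_mul, ap_mul, ap_inv_ap]
    have hfx := hTfix ⟨w', hw'⟩ v (hfixC v hv)
    have e : ap (μ ⟨w', hw'⟩) v = (ap (μ ⟨w', hw'⟩) v + pC (ap (μ ⟨w', hw'⟩) v)) + v := by
      rw [hv' ⟨w', hw'⟩, add_assoc, vadd_self, add_zero]
    rw [e, ap_add, hbS _ (hpart _ hfx), hpC_add, hpC_S _ (hpart _ hfx), zero_add, hpC _ (inC_E hv)]
  have hFxall : ∀ v, inC v → v ∈ Fx := by
    intro v hv
    refine inC_mem Fx (fun i => ?_) hv
    have hmem : v₀.1 ∈ Fx := ⟨v₀.2, fun w => congrArg Subtype.val (hv₀ w)⟩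
    obtain ⟨e0, e1, e2, e3, he⟩ := orbit_span v₀.1 v₀.2
      (fun e => hv₀ne (Subtype.ext e.symm)) i
    rw [← he]
    have hs : ∀ (c : ZMod 2) (u : V), u ∈ Fx → c • u ∈ Fx := fun c u hu => by
      rcases z2_cases c with rfl | rfl
      · rw [zero_smul]; exact Fx.zero_mem
      · rwa [one_smul]
    exact Fx.add_mem (Fx.add_mem (Fx.add_mem (hs _ _ hmem) (hs _ _ (hFxsh _ hmem)))
      (hs _ _ (hFxsh _ (hFxsh _ hmem)))) (hs _ _ (hFxsh _ (hFxsh _ (hFxsh _ hmem))))
  -- displacements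
  have hDC : ∀ w v, inC v → inS (ap (μ w) v + v) := by
    intro w v hv
    have h1 := hpart _ (hTfix w v (hfixC v hv))
    have e : cmb Cc (coC (ap (μ w) v)) = v := (hFxall v hv).2 w
    rwa [e] at h1
  have hA0S : inS (A 0) := ⟨inA_A 0, by rw [hρt, E_A, hσ0]⟩
  have hSA0 : ∀ s, inS s → bl s (A 0) = 0 := fun s hs =>
    (fixed_inA σ hσ2 hσ1 hσ0 s hs.1 (by rw [← hTap]; exact hs.2)).2.2
  have hSC : ∀ s v, inS s → inC v → bl s v = 0 := fun s v hs hv => by
    rw [eq_cmb_of_inA hs.1, eq_cmb_of_inC hv]; exact isFrames_std.bl_cmb _ _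
  let D : ↥S.W → V → V := fun w v => ap (μ w) v + v
  have hDadd : ∀ w u v, D w (u + v) = D w u + D w v := fun w u v => by
    simp only [D, ap_add]; abel
  have hDline : ∀ w v, inC v → D w v = 0 ∨ D w v = A 0 := by
    intro w
    let H : AddSubgroup V :=
      { carrier := {v | D w v = 0 ∨ D w v = A 0}
        zero_mem' := Or.inl (by simp only [D, ap_zero, add_zero])
        add_mem' := fun {u v} hu hv => by
          rcases hu with e | e <;> rcases hv with e' | e' <;>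
            simp only [Set.mem_ofPred_eq, hDadd, e, e', add_zero, zero_add, vadd_self, true_or, or_true]
        neg_mem' := fun {v} hv => by
          rw [show -v = v from funext fun i => CharTwo.neg_eq (v i)]; exact hv }
    refine fun v hv => inC_mem H (fun i => ?_) hv
    have hs := hDC w (Cc i) (inC_Cc i)
    refine (fixed_inA σ hσ2 hσ1 hσ0 _ hs.1 (by rw [← hTap]; exact hs.2)).2.1 ?_
    have h1 := q_ap (μ w) (Cc i)
    rw [show ap (μ w) (Cc i) = D w (Cc i) + Cc i by simp only [D]; rw [add_assoc, vadd_self, add_zero],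
      q_add, hSC _ _ hs (inC_Cc i), q_Cc, add_zero, add_zero] at h1
    exact h1
  have hDS : ∀ w v, inS v → D w v = 0 := fun w v hv => by simp only [D, hfixS w v hv, vadd_self]
  -- the displacement of a vector of the first space
  have hDA : ∀ w v, inA v → ap T (D w v) = D w v := by
    intro w v _
    have h1 := hfixS w _ (hImg v)
    rw [ap_add, ← ap_mul, hμT, ap_mul] at h1
    show ap T (ap (μ w) v + v) = ap (μ w) v + v
    rw [ap_add]
    have h2 : ap (μ w) v + v + (ap T (ap (μ w) v) + ap T v) = 0 := by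
      rw [add_add_add_comm, h1, vadd_self]
    exact (vadd_eq_zero.1 h2).symm
  have hpair : ∀ w v u, inA v → inC u → bl (pC (D w v)) u = bl v (D w u) := by
    intro w v u hv hu
    have hfx := hDA w v hv
    have e0 : bl (D w v) u = bl (pC (D w v)) u := by
      conv_lhs => rw [show D w v = (D w v + pC (D w v)) + pC (D w v) by
        rw [add_assoc, vadd_self, add_zero]]
      rw [bl_add_left, hSC _ _ (hpart _ hfx) hu, zero_add]
    have h1 := bl_ap (μ w) v u
    rw [show ap (μ w) v = D w v + v by simp only [D]; rw [add_assoc, vadd_self, add_zero],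
      show ap (μ w) u = D w u + u by simp only [D]; rw [add_assoc, vadd_self, add_zero],
      bl_add_left (D w v) v, bl_add_right (D w v) (D w u) u, bl_add_right v (D w u) u] at h1
    have h2 : bl (D w v) (D w u) = 0 := by
      rcases hDline w u hu with e | e <;> rw [e]
      · exact bl_zero_right _
      · rw [show D w v = (D w v + pC (D w v)) + pC (D w v) by rw [add_assoc, vadd_self, add_zero],
          bl_add_left, hSA0 _ (hpart _ hfx), zero_add, bl_comm]
        exact hSC _ _ hA0S (inC_cmb _)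
    have h3 : bl v u = 0 := by
      rw [eq_cmb_of_inA hv, eq_cmb_of_inC hu]; exact isFrames_std.bl_cmb _ _
    rw [h2, h3, e0, zero_add, add_zero] at h1
    exact CharTwo.add_eq_zero.1 h1
  have hsym : ∀ w w' v, inA v → D w (D w' v) = D w' (D w v) := by
    intro w w' v hv
    have hred : ∀ w w', D w (D w' v) = D w (pC (D w' v)) := fun w w' => by
      conv_lhs => rw [show D w' v = (D w' v + pC (D w' v)) + pC (D w' v) by
        rw [add_assoc, vadd_self, add_zero], hDadd, hDS _ _ (hpart _ (hDA w' v hv)), zero_add]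
    rw [hred w w', hred w' w]
    rcases z2_cases (bl v (A 0)) with e | e
    · have hz : ∀ w, pC (D w v) = 0 := fun w => by
        refine inA_inC_zero (fun i => ?_) (inC_cmb _)
        rw [hpair w v _ hv (inC_Cc i)]
        rcases hDline w _ (inC_Cc i) with e' | e' <;> rw [e']
        · exact bl_zero_right _
        · exact e
      rw [hz, hz]
      simp only [D, ap_zero]
    · have hval : ∀ w u, inC u → D w u = bl (pC (D w v)) u • A 0 := fun w u hu => by
        rw [hpair w v u hv hu]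
        rcases hDline w u hu with e' | e' <;> rw [e']
        · rw [bl_zero_right, zero_smul]
        · rw [e, one_smul]
      rw [hval w _ (inC_cmb _), hval w' _ (inC_cmb _), bl_comm]
  have hcomm : ∀ w w', μ w * μ w' = μ w' * μ w := by
    intro w w'
    have hxy : ∀ v, D w (D w' v) = D w' (D w v) → ap (μ w) (ap (μ w') v) = ap (μ w') (ap (μ w) v) := by
      intro v e
      have ex : ∀ w w', ap (μ w) (ap (μ w') v) = v + D w v + D w' v + D w (D w' v) := fun w w' => by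
        simp only [D, ap_add]
        exact alg _ _ _ _
      rw [ex w w', ex w' w, e]; abel
    refine O_ext (fun i => ?_) fun i => ?_
    · rw [ap_mul, ap_mul]
      exact hxy _ (hsym w w' _ (inA_A i))
    · rw [ap_mul, ap_mul]
      refine hxy _ ?_
      have h0 : ∀ w v, v = 0 ∨ v = A 0 → D w v = 0 := by
        rintro w v (rfl | rfl)
        · simp only [D, ap_zero, add_zero]
        · exact hDS w _ hA0S
      rw [h0 w _ (hDline w' _ (inC_Cc i)), h0 w' _ (hDline w _ (inC_Cc i))]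
  obtain ⟨c₀, hc₀, hθ₀⟩ := S.exists_W (inC_Cc 0)
  obtain ⟨c₁, hc₁, hθ₁⟩ := S.exists_W (inC_Cc 1)
  have e := hcomm ⟨c₀, hc₀⟩ ⟨c₁, hc₁⟩
  rw [← map_mul, ← map_mul] at e
  have hz : (⟨c₀, hc₀⟩ * ⟨c₁, hc₁⟩ : ↥S.W) = ⟨z, S.z_mem_W⟩ * (⟨c₁, hc₁⟩ * ⟨c₀, hc₀⟩) := by
    refine Subtype.ext ?_
    show c₀ * c₁ = z * (c₁ * c₀)
    have := S.conj_eq_z hc₀.1 hc₁.1 (by rw [hθ₀, hθ₁]; exact (A_rel 0 1).2.2.2.2)
    rw [mul_inv_eq_iff_eq_mul] at this
    rw [this, mul_assoc]
  rw [hz, map_mul] at e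
  have h1 : μ ⟨z, S.z_mem_W⟩ = 1 := mul_eq_right.1 e
  have h2 : ρ (g * z * g⁻¹) = 1 := h1
  rw [hg] at h2
  exact htQ ((S.ρ_ker t htz).1 h2)

end Setting

end CfsgLib.ConwayFive
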