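import Cfsg.Agent.Lib.ConwayFive.Invol
import Cfsg.Agent.Lib.ConwayFive.TwoClasses

/-!
The centraliser of the component generated by `K0` and `r`.
-/

set_option autoImplicit false
set_option linter.unusedSectionVars false
set_option linter.style.haveILetI false
set_option maxRecDepth 100000
set_option synthInstance.maxSize 1000

namespace CfsgLib.ConwayFive

open CfsgLib.SuzukiType (zp zp_zero zp_one conj_fix_iff)

theorem perp_perp : ∀ v : V, (∀ x : Fin 4 → ZMod 2, bl (cmb A x) (A 0) = 0 → bl v (cmb A x) = 0) →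
    inC v ∨ inC (v + A 0) := by
  rw [forall_vec]; decide +kernel

variable {G : Type*} [Group G] [Finite G]
variable {z : G} {Qf : G → Subgroup G} {θ : G → V} {ρ : G → O} {J : Subgroup O} {b a h : G}

namespace Swap

variable (P : Swap z Qf θ ρ J b a h)
include P

theorem r_inter_W {r x : G} (hrb : r * b = b * r) (hrz : r * z * r⁻¹ = a * z) (hx : x ∈ P.toSetting.W)
    (hxr : x * r = r * x) : x = 1 := by
  have S := P.toSetting
  let M : Subgroup G := S.W ⊓ Subgroup.centralizer ({r} : Set G)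
  have hzM : z ∉ M := fun hm => by
    have e := conj_fix_iff.2 (Subgroup.mem_centralizer_singleton_iff.1 hm.2).symm
    rw [hrz] at e
    exact P.a_ne (mul_eq_right.1 e)
  have hxM : x ∈ M := ⟨hx, Subgroup.mem_centralizer_singleton_iff.2 hxr⟩
  by_contra hne
  have hθ : θ x ≠ 0 := fun e => by
    rcases (S.θ_ker x hx.1).1 e with e' | e'
    · exact hne e'
    · exact hzM (e' ▸ hxM)
  obtain ⟨A', hA'⟩ := S.subgroup_of_θ M
  have hstep : ∀ v ∈ A', shC v ∈ A' := by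
    intro v hv
    obtain ⟨y, hy, hyM, e⟩ := (hA' v).1 hv
    refine (hA' _).2 ⟨b * y * b⁻¹, S.conj_mem_Q S.b_comm hy, ⟨S.b_conj_W hyM.1, ?_⟩, ?_⟩
    · refine Subgroup.mem_centralizer_singleton_iff.2 ?_
      have hyr : Commute y r := Subgroup.mem_centralizer_singleton_iff.1 hyM.2
      have hbr : Commute b r := hrb.symm
      exact ((hbr.mul_left hyr).mul_left hbr.inv_left).eq
    · rw [S.ρ_act b S.b_comm y hy, S.ρ_b, ap_E_shC, e]
  have hmem : θ x ∈ A' := (hA' _).2 ⟨x, hx.1, hxM, rfl⟩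
  have hall : ∀ i, Cc i ∈ A' := fun i => by
    obtain ⟨e0, e1, e2, e3, he⟩ := orbit_span (θ x) hx.2 hθ i
    rw [← he]
    have hs : ∀ (c : ZMod 2) (u : V), u ∈ A' → c • u ∈ A' := fun c u hu => by
      rcases z2_cases c with rfl | rfl
      · rw [zero_smul]; exact A'.zero_mem
      · rwa [one_smul]
    exact A'.add_mem (A'.add_mem (A'.add_mem (hs _ _ hmem) (hs _ _ (hstep _ hmem)))
      (hs _ _ (hstep _ (hstep _ hmem)))) (hs _ _ (hstep _ (hstep _ (hstep _ hmem))))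
  obtain ⟨c₀, hc₀, hc₀M, e₀⟩ := (hA' _).1 (hall 0)
  obtain ⟨c₁, hc₁, hc₁M, e₁⟩ := (hA' _).1 (hall 1)
  refine hzM ?_
  have := M.mul_mem (M.mul_mem (M.mul_mem hc₀M hc₁M) (M.inv_mem hc₀M)) (M.inv_mem hc₁M)
  rwa [S.conj_eq_z hc₀ hc₁ (by rw [e₀, e₁]; exact (A_rel 0 1).2.2.2.2), mul_inv_cancel_right] at this

/-- The centraliser is alternating of degree five. -/
theorem centralizer_equiv {s r : G} (hs : s ∈ P.toSetting.U) (hr : r = h * s * h⁻¹)
    (hrr : r * r = 1) (hrb : r * b = b * r) (hrz : r * z * r⁻¹ = a * z) :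
    Nonempty (↥(Subgroup.centralizer ((Subgroup.closure (insert r (P.toSetting.K0 : Set G)) :
      Subgroup G) : Set G)) ≃* alternatingGroup (Fin 5)) := by
  classical
  have S := P.toSetting
  set X := Subgroup.centralizer ((Subgroup.closure (insert r (P.toSetting.K0 : Set G)) :
      Subgroup G) : Set G) with hX
  have hmemX : ∀ x, x ∈ X ↔ x ∈ S.X0 ∧ x * r = r * x := by
    intro x
    rw [hX, Subgroup.centralizer_closure, Subgroup.mem_centralizer_iff, ← S.centralizer_K0,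
      Subgroup.mem_centralizer_iff]
    constructor
    · exact fun H => ⟨fun g hg => H g (Or.inr hg), (H r (Or.inl rfl)).symm⟩
    · rintro ⟨H1, H2⟩ g (rfl | hg)
      · exact H2.symm
      · exact H1 g hg
  have hgood := P.good_a
  have hrQ : r ∈ Qf a := by rw [hr]; exact P.conj_Qa hs.1
  let Cset : Set G := {c | c ∈ Qf a ∧ ∀ u ∈ S.U, u * a = a * u → c * (h * u * h⁻¹) = (h * u * h⁻¹) * c}
  -- at most 64 elements
  let Γ : ↥S.W × Bool → G := fun p => h * ((p.1 : G) * if p.2 then a else 1) * h⁻¹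
  have hΓ : ∀ c ∈ Cset, ∃ p, Γ p = c := by
    rintro c ⟨hc, hcd⟩
    set w := h⁻¹ * c * h with hw
    have hwQ : w ∈ Qf z := P.Qa_conj hc
    have hperp : inC (θ w) ∨ inC (θ w + A 0) := perp_perp _ fun x hx => by
      obtain ⟨u, hu, hθu⟩ := S.exists_U (inA_cmb x)
      have hua : u * a = a * u := (S.comm_iff hu.1 P.a_mem).2 (by rw [hθu, P.θa, hx])
      rw [← hθu, ← S.comm_iff hwQ hu.1]
      calc w * u = h⁻¹ * (c * (h * u * h⁻¹)) * h := by rw [hw]; group
        _ = h⁻¹ * ((h * u * h⁻¹) * c) * h := by rw [hcd u hu hua]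
        _ = u * w := by rw [hw]; group
    rcases hperp with e | e
    · exact ⟨(⟨w, hwQ, e⟩, false), by simp only [Γ, Bool.false_eq_true, if_false, mul_one, hw]; group⟩
    · have hwa : w * a ∈ S.W := ⟨(Qf z).mul_mem hwQ P.a_mem, by rw [S.θ_mul w hwQ a P.a_mem, P.θa]; exact e⟩
      refine ⟨(⟨w * a, hwa⟩, true), ?_⟩
      simp only [Γ, if_true]
      rw [mul_assoc w a a, P.a_sq, mul_one, hw]
      group
  have hCcard : Nat.card Cset ≤ Nat.card (↥S.W × Bool) := by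
    refine le_trans (Nat.card_mono (Set.finite_range Γ) fun c hc => hΓ c hc) ?_
    exact Finite.card_range_le Γ
  -- the images of `r`
  have hzQa : z ∈ Qf a := by
    have := S.core.symm (g := h) (by rw [P.hz]; exact P.a_mem)
    rwa [P.hz] at this
  have himg : ∀ x ∈ S.X0, r⁻¹ * (x * r * x⁻¹) ∈ Cset := by
    intro x hx
    obtain ⟨hxz, hxU⟩ := S.mem_X0.1 hx
    have hxa : x * a * x⁻¹ = a := conj_fix_iff.2 (hxU a P.a_U)
    have hr' : x * r * x⁻¹ ∈ Qf a := by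
      have := S.core.conj_mem x a hrQ
      rwa [hxa] at this
    refine ⟨(Qf a).mul_mem ((Qf a).inv_mem hrQ) hr', fun u hu hua => ?_⟩
    obtain ⟨hdK, -, -, -⟩ := P.image_facts hu hua
    set d := h * u * h⁻¹ with hd
    have hxd : x * d * x⁻¹ = d := conj_fix_iff.2 (S.K0_comm_X0 hdK hx).symm
    have e : (x * r * x⁻¹) * d * (x * r * x⁻¹)⁻¹ = r * d * r⁻¹ := by
      calc (x * r * x⁻¹) * d * (x * r * x⁻¹)⁻¹ = x * (r * (x⁻¹ * (x * d * x⁻¹) * x) * r⁻¹) * x⁻¹ := by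
            rw [hxd]; group
        _ = x * (r * d * r⁻¹) * x⁻¹ := by group
        _ = r * d * r⁻¹ := by
          rcases hgood.cases_conj r hrQ d (P.conj_Qa hu.1) with e' | e' <;> rw [e']
          · exact hxd
          · rw [show x * (a * d) * x⁻¹ = (x * a * x⁻¹) * (x * d * x⁻¹) by group, hxa, hxd]
    rw [← conj_fix_iff]
    calc r⁻¹ * (x * r * x⁻¹) * d * (r⁻¹ * (x * r * x⁻¹))⁻¹
        = r⁻¹ * ((x * r * x⁻¹) * d * (x * r * x⁻¹)⁻¹) * r := by group
      _ = d := by rw [e]; group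
  have hzC : z ∈ Cset := ⟨hzQa, fun u hu hua => ((S.mem_K0.1 (P.image_facts hu hua).1).1).symm⟩
  have hCmul : ∀ c ∈ Cset, ∀ c' ∈ Cset, c * c' ∈ Cset := fun c hc c' hc' =>
    ⟨(Qf a).mul_mem hc.1 hc'.1, fun u hu hua =>
      ((show Commute c (h * u * h⁻¹) from hc.2 u hu hua).mul_left (hc'.2 u hu hua)).eq⟩
  let F : ↥S.W × Bool → Cset := fun p =>
    ⟨r⁻¹ * ((p.1 : G) * r * (p.1 : G)⁻¹) * (if p.2 then z else 1), by
      split_ifs
      · exact hCmul _ (himg _ (S.W_le_X0 p.1.2)) _ hzC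
      · rw [mul_one]; exact himg _ (S.W_le_X0 p.1.2)⟩
  have hsq : ∀ x ∈ S.X0, (x * r * x⁻¹) * (x * r * x⁻¹) = 1 ∧
      (x * r * x⁻¹) * z * ((x * r * x⁻¹) * z) = a := by
    intro x hx
    obtain ⟨hxz, hxU⟩ := S.mem_X0.1 hx
    have h1 : (x * r * x⁻¹) * (x * r * x⁻¹) = 1 := by
      rw [show x * r * x⁻¹ * (x * r * x⁻¹) = x * (r * r) * x⁻¹ by group, hrr]; group
    refine ⟨h1, ?_⟩
    have e1 : x * z * x⁻¹ = z := conj_fix_iff.2 hxz
    have e2 : (x * r * x⁻¹) * z * (x * r * x⁻¹)⁻¹ = a * z := by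
      calc (x * r * x⁻¹) * z * (x * r * x⁻¹)⁻¹
          = x * r * (x⁻¹ * (x * z * x⁻¹) * x) * r⁻¹ * x⁻¹ := by rw [e1]; group
        _ = x * (r * z * r⁻¹) * x⁻¹ := by group
        _ = (x * a * x⁻¹) * (x * z * x⁻¹) := by rw [hrz]; group
        _ = a * z := by rw [e1, conj_fix_iff.2 (hxU a P.a_U)]
    rw [inv_eq_of_mul_eq_one_right h1] at e2
    calc (x * r * x⁻¹) * z * ((x * r * x⁻¹) * z) = ((x * r * x⁻¹) * z * (x * r * x⁻¹)) * z := by group
      _ = a := by rw [e2, mul_assoc, S.z_sq, mul_one]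
  have hFinj : Function.Injective F := by
    rintro ⟨w, e⟩ ⟨w', e'⟩ hh
    have hh' : ((w : G) * r * (w : G)⁻¹) * (if e then z else 1) =
        ((w' : G) * r * (w' : G)⁻¹) * (if e' then z else 1) := by
      have := congrArg Subtype.val hh
      simp only [F, mul_assoc] at this ⊢
      exact mul_left_cancel this
    obtain ⟨s1, s1z⟩ := hsq _ (S.W_le_X0 w.2)
    obtain ⟨s2, s2z⟩ := hsq _ (S.W_le_X0 w'.2)
    have hww : ∀ f : ↥S.W, ∀ f' : ↥S.W,
        (f : G) * r * (f : G)⁻¹ = (f' : G) * r * (f' : G)⁻¹ → f = f' := by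
      intro f f' hf
      have h0 : ((f' : G)⁻¹ * f) * r = r * ((f' : G)⁻¹ * f) := by
        rw [← conj_fix_iff]
        calc (f' : G)⁻¹ * f * r * ((f' : G)⁻¹ * f)⁻¹ = (f' : G)⁻¹ * ((f : G) * r * (f : G)⁻¹) * f' := by
              group
          _ = r := by rw [hf]; group
      exact (Subtype.ext (inv_mul_eq_one.1 (P.r_inter_W hrb hrz (S.W.mul_mem (S.W.inv_mem f'.2) f.2) h0))).symm
    cases e <;> cases e'
    · simp only [Bool.false_eq_true, if_false, mul_one] at hh'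
      rw [hww w w' hh']
    · simp only [Bool.false_eq_true, if_false, if_true, mul_one] at hh'
      rw [← hh', s1] at s2z
      exact absurd s2z.symm P.a_ne
    · simp only [Bool.false_eq_true, if_false, if_true, mul_one] at hh'
      rw [hh', s2] at s1z
      exact absurd s1z.symm P.a_ne
    · simp only [if_true] at hh'
      rw [hww w w' (mul_right_cancel hh')]
  have hFsurj : Function.Surjective F := (hFinj.bijective_of_nat_card_le hCcard).2
  have htrans : ∀ x ∈ S.X0, ∃ w ∈ S.W, w⁻¹ * x ∈ X := by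
    intro x hx
    obtain ⟨⟨w, e⟩, hwe⟩ := hFsurj ⟨_, himg x hx⟩
    have hwe' : r⁻¹ * ((w : G) * r * (w : G)⁻¹) * (if e then z else 1) = r⁻¹ * (x * r * x⁻¹) :=
      congrArg Subtype.val hwe
    rw [mul_assoc r⁻¹] at hwe'
    have hwe'' := mul_left_cancel hwe'
    cases e
    · simp only [Bool.false_eq_true, if_false, mul_one] at hwe''
      refine ⟨w, w.2, (hmemX _).2 ⟨S.X0.mul_mem (S.X0.inv_mem (S.W_le_X0 w.2)) hx, ?_⟩⟩
      rw [← conj_fix_iff]
      calc (w : G)⁻¹ * x * r * ((w : G)⁻¹ * x)⁻¹ = (w : G)⁻¹ * (x * r * x⁻¹) * w := by group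
        _ = r := by rw [← hwe'']; group
    · exfalso
      simp only [if_true] at hwe''
      have := (hsq x hx).1
      rw [← hwe'', (hsq _ (S.W_le_X0 w.2)).2] at this
      exact P.a_ne this
  obtain ⟨φ, -, hφs, hφk⟩ := S.exists_X0_hom
  let f : ↥X →* alternatingGroup (Fin 5) :=
    φ.comp (MonoidHom.mk' (fun x : ↥X => (⟨(x : G), ((hmemX _).1 x.2).1⟩ : ↥S.X0)) fun _ _ => rfl)
  refine ⟨MulEquiv.ofBijective f ⟨(injective_iff_map_eq_one f).2 fun x hx => Subtype.ext ?_, fun π => ?_⟩⟩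
  · exact P.r_inter_W hrb hrz ((hφk _).1 hx) ((hmemX _).1 x.2).2
  · obtain ⟨x, rfl⟩ := hφs π
    obtain ⟨w, hw, hxX⟩ := htrans x x.2
    refine ⟨⟨w⁻¹ * x, hxX⟩, ?_⟩
    show φ ⟨w⁻¹ * x, _⟩ = φ x
    rw [show (⟨w⁻¹ * (x : G), ((hmemX _).1 hxX).1⟩ : ↥S.X0) = (⟨w, S.W_le_X0 hw⟩ : ↥S.X0)⁻¹ * x from rfl,
      map_mul, map_inv, (hφk ⟨w, S.W_le_X0 hw⟩).2 hw, inv_one, one_mul]

end Swap

end CfsgLib.ConwayFive
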