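import Cfsg.Agent.Lib.ClassicalForms.Ortho.POmegaCard

/-!
The eight-dimensional hyperbolic space over the field with two elements split into two elliptic
four-dimensional spaces, each with its five singular points.
-/

set_option autoImplicit false
set_option maxRecDepth 100000
set_option synthInstance.maxSize 1000

namespace CfsgLib.ConwayFive

open CfsgLib.ClassicalForms

/-- The space. -/
abbrev V : Type := Fin 4 ⊕ Fin 4 → ZMod 2

/-- A vector by its coordinates. -/
def vec (a b c d e f g h : ZMod 2) : V := Sum.elim ![a, b, c, d] ![e, f, g, h]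

theorem eq_vec (v : V) : v = vec (v (.inl 0)) (v (.inl 1)) (v (.inl 2)) (v (.inl 3)) (v (.inr 0))
    (v (.inr 1)) (v (.inr 2)) (v (.inr 3)) := by
  funext i
  rcases i with i | i <;> fin_cases i <;> rfl

theorem forall_vec {P : V → Prop} : (∀ v, P v) ↔ ∀ a b c d e f g h, P (vec a b c d e f g h) :=
  ⟨fun H _ _ _ _ _ _ _ _ => H _, fun H v => by rw [eq_vec v]; exact H _ _ _ _ _ _ _ _⟩

/-- The form. -/
def q (v : V) : ZMod 2 :=
  v (.inl 0) * v (.inr 0) + v (.inl 1) * v (.inr 1) + v (.inl 2) * v (.inr 2) + v (.inl 3) * v (.inr 3)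

/-- Its polar form. -/
def bl (u v : V) : ZMod 2 :=
  u (.inl 0) * v (.inr 0) + u (.inr 0) * v (.inl 0) + u (.inl 1) * v (.inr 1) + u (.inr 1) * v (.inl 1) +
    u (.inl 2) * v (.inr 2) + u (.inr 2) * v (.inl 2) + u (.inl 3) * v (.inr 3) + u (.inr 3) * v (.inl 3)

/-- The quadratic form. -/
abbrev qP : QuadraticForm (ZMod 2) V := qPlus 4 (ZMod 2)

theorem qP_apply (v : V) : qP v = q v := by
  rw [qPlus_apply, Cfsg.quadFormPlus, q, Fin.sum_univ_four]

theorem q_add (u v : V) : q (u + v) = q u + q v + bl u v := by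
  simp only [q, bl, Pi.add_apply]; ring

theorem polar_qP (u v : V) : QuadraticMap.polar qP u v = bl u v := by
  simp only [QuadraticMap.polar, qP_apply, q_add]; ring

theorem z2_cases : ∀ t : ZMod 2, t = 0 ∨ t = 1 := by decide

theorem vadd_self (v : V) : v + v = 0 := funext fun i => CharTwo.add_self_eq_zero (v i)

theorem vsub (u v : V) : u - v = u + v := funext fun i => CharTwo.sub_eq_add (u i) (v i)

theorem vadd_eq_zero {u v : V} : u + v = 0 ↔ u = v := by rw [← vsub, sub_eq_zero]

theorem bl_comm (u v : V) : bl u v = bl v u := by simp only [bl]; ring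

theorem bl_add_left (u u' v : V) : bl (u + u') v = bl u v + bl u' v := by
  simp only [bl, Pi.add_apply]; ring

theorem bl_add_right (u v v' : V) : bl u (v + v') = bl u v + bl u v' := by
  simp only [bl, Pi.add_apply]; ring

theorem bl_smul_left (c : ZMod 2) (u v : V) : bl (c • u) v = c * bl u v := by
  simp only [bl, Pi.smul_apply, smul_eq_mul]; ring

theorem bl_smul_right (c : ZMod 2) (u v : V) : bl u (c • v) = c * bl u v := by
  rw [bl_comm, bl_smul_left, bl_comm]

theorem bl_self (u : V) : bl u u = 0 := by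
  rw [← polar_qP, QuadraticMap.polar_self, two_nsmul, CharTwo.add_self_eq_zero]

@[simp] theorem q_zero : q (0 : V) = 0 := by simp [q]
@[simp] theorem bl_zero_left (v : V) : bl 0 v = 0 := by simp [bl]
@[simp] theorem bl_zero_right (v : V) : bl v 0 = 0 := by simp [bl]

theorem q_smul (c : ZMod 2) (v : V) : q (c • v) = c * q v := by
  rcases z2_cases c with rfl | rfl <;> simp

/-- The first frame. -/
def A : Fin 5 → V := ![vec 1 0 0 0 0 0 0 0,
  vec 0 0 0 0 1 0 0 0,
  vec 1 1 0 0 1 1 0 0,
  vec 1 1 1 0 1 0 1 0,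
  vec 1 0 1 0 1 1 1 0]

/-- The second frame. -/
def Cc : Fin 5 → V := ![vec 0 0 0 1 0 0 0 0,
  vec 0 0 0 0 0 0 0 1,
  vec 0 0 1 1 0 0 1 1,
  vec 0 1 1 1 0 1 0 1,
  vec 0 1 0 1 0 1 1 1]

theorem A_rel : ∀ i j : Fin 5, q (A i) = 0 ∧ bl (A i) (A j) = (if i = j then 0 else 1) ∧
    bl (A i) (Cc j) = 0 ∧ q (Cc i) = 0 ∧ bl (Cc i) (Cc j) = (if i = j then 0 else 1) := by
  decide +kernel

theorem q_A (i : Fin 5) : q (A i) = 0 := (A_rel i i).1
theorem q_Cc (i : Fin 5) : q (Cc i) = 0 := (A_rel i i).2.2.2.1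
theorem bl_AC (i j : Fin 5) : bl (A i) (Cc j) = 0 := (A_rel i j).2.2.1

/-- The coefficients with respect to the first four vectors of the first frame. -/
def coA (v : V) (i : Fin 4) : ZMod 2 :=
  bl v (A i.castSucc) + (bl v (A 0) + bl v (A 1) + bl v (A 2) + bl v (A 3))

/-- The coefficients with respect to the first four vectors of the second frame. -/
def coC (v : V) (i : Fin 4) : ZMod 2 :=
  bl v (Cc i.castSucc) + (bl v (Cc 0) + bl v (Cc 1) + bl v (Cc 2) + bl v (Cc 3))

/-- A combination of the first four vectors of a family. -/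
def cmb (P : Fin 5 → V) (x : Fin 4 → ZMod 2) : V :=
  x 0 • P 0 + x 1 • P 1 + x 2 • P 2 + x 3 • P 3

theorem decomp : ∀ v : V, cmb A (coA v) + cmb Cc (coC v) = v := by
  rw [forall_vec]; decide +kernel

theorem co_frame : ∀ (i : Fin 4) (k : Fin 4), coA (A i.castSucc) k = (if k = i then 1 else 0) ∧
    coC (A i.castSucc) k = 0 ∧ coA (Cc i.castSucc) k = 0 ∧
    coC (Cc i.castSucc) k = (if k = i then 1 else 0) := by
  decide +kernel

theorem coA_add (u v : V) : coA (u + v) = coA u + coA v := by
  funext i; simp only [coA, bl_add_left, Pi.add_apply]; ring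

theorem coC_add (u v : V) : coC (u + v) = coC u + coC v := by
  funext i; simp only [coC, bl_add_left, Pi.add_apply]; ring

theorem cmb_add (P : Fin 5 → V) (x y : Fin 4 → ZMod 2) : cmb P (x + y) = cmb P x + cmb P y := by
  simp only [cmb, Pi.add_apply, add_smul]; abel

/-- Two mutually orthogonal frames. -/
structure IsFrames (P P' : Fin 5 → V) : Prop where
  qP : ∀ i, q (P i) = 0
  qP' : ∀ i, q (P' i) = 0
  blP : ∀ i j, bl (P i) (P j) = if i = j then 0 else 1
  blP' : ∀ i j, bl (P' i) (P' j) = if i = j then 0 else 1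
  cross : ∀ i j, bl (P i) (P' j) = 0

theorem isFrames_std : IsFrames A Cc :=
  ⟨q_A, q_Cc, fun i j => (A_rel i j).2.1, fun i j => (A_rel i j).2.2.2.2, bl_AC⟩

/-- The value of the form on a combination. -/
def qco (x : Fin 4 → ZMod 2) : ZMod 2 :=
  x 0 * x 1 + x 0 * x 2 + x 0 * x 3 + x 1 * x 2 + x 1 * x 3 + x 2 * x 3

variable {P P' : Fin 5 → V}

theorem IsFrames.q_cmb_left (h : IsFrames P P') (x : Fin 4 → ZMod 2) : q (cmb P x) = qco x := by
  simp only [cmb, qco, q_add, q_smul, bl_add_left, bl_smul_left, bl_smul_right, h.qP, h.blP]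
  simp only [Fin.reduceEq, if_false]
  ring

theorem IsFrames.symm (h : IsFrames P P') : IsFrames P' P :=
  ⟨h.qP', h.qP, h.blP', h.blP, fun i j => by rw [bl_comm]; exact h.cross j i⟩

theorem IsFrames.bl_cmb (h : IsFrames P P') (x y : Fin 4 → ZMod 2) :
    bl (cmb P x) (cmb P' y) = 0 := by
  simp only [cmb, bl_add_left, bl_add_right, bl_smul_left, bl_smul_right, h.cross, mul_zero, add_zero]

theorem IsFrames.q_sum (h : IsFrames P P') (x y : Fin 4 → ZMod 2) :
    q (cmb P x + cmb P' y) = qco x + qco y := by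
  rw [q_add, h.q_cmb_left, h.symm.q_cmb_left, h.bl_cmb, add_zero]

/-- The map sending the standard frames to given ones. -/
def frameFun (P P' : Fin 5 → V) (v : V) : V := cmb P (coA v) + cmb P' (coC v)

theorem frameFun_add (u v : V) : frameFun P P' (u + v) = frameFun P P' u + frameFun P P' v := by
  simp only [frameFun, coA_add, coC_add, cmb_add]; abel

theorem frameFun_four (i : Fin 4) : frameFun P P' (A i.castSucc) = P i.castSucc ∧
    frameFun P P' (Cc i.castSucc) = P' i.castSucc := by
  have e1 : coA (A i.castSucc) = Pi.single i 1 ∧ coC (A i.castSucc) = 0 ∧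
      coA (Cc i.castSucc) = 0 ∧ coC (Cc i.castSucc) = Pi.single i 1 := by
    refine ⟨funext fun k => ?_, funext fun k => ?_, funext fun k => ?_, funext fun k => ?_⟩ <;>
      simp only [(co_frame i k).1, (co_frame i k).2.1, (co_frame i k).2.2.1, (co_frame i k).2.2.2,
        Pi.single_apply, Pi.zero_apply]
  obtain ⟨a1, a2, a3, a4⟩ := e1
  rw [frameFun, frameFun, a1, a2, a3, a4]
  fin_cases i <;> simp [cmb]

theorem q_frameFun (h : IsFrames P P') (v : V) : q (frameFun P P' v) = q v := by
  conv_rhs => rw [← decomp v]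
  rw [frameFun, h.q_sum, isFrames_std.q_sum]

theorem bl_frameFun (h : IsFrames P P') (u v : V) :
    bl (frameFun P P' u) (frameFun P P' v) = bl u v := by
  have e := q_frameFun h (u + v)
  rw [frameFun_add, q_add, q_add, q_frameFun h, q_frameFun h] at e
  exact add_left_cancel e

/-- Vectors are determined by their products with the frames. -/
theorem bl_ext {u v : V} (h1 : ∀ i : Fin 4, bl u (A i.castSucc) = bl v (A i.castSucc))
    (h2 : ∀ i : Fin 4, bl u (Cc i.castSucc) = bl v (Cc i.castSucc)) : u = v := by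
  have a0 := h1 0; have a1 := h1 1; have a2 := h1 2; have a3 := h1 3
  have c0 := h2 0; have c1 := h2 1; have c2 := h2 2; have c3 := h2 3
  simp only [Fin.castSucc_zero, show ((1 : Fin 4).castSucc) = 1 from rfl,
    show ((2 : Fin 4).castSucc) = 2 from rfl, show ((3 : Fin 4).castSucc) = 3 from rfl]
    at a0 a1 a2 a3 c0 c1 c2 c3
  rw [← decomp u, ← decomp v]
  simp only [cmb, coA, coC, h1, h2, a0, a1, a2, a3, c0, c1, c2, c3]

theorem frameFun_injective (h : IsFrames P P') : Function.Injective (frameFun P P') := by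
  intro u v e
  exact bl_ext (fun i => by rw [← bl_frameFun h u, ← bl_frameFun h v, e])
    (fun i => by rw [← bl_frameFun h u, ← bl_frameFun h v, e])

theorem frameFun_bijective (h : IsFrames P P') : Function.Bijective (frameFun P P') :=
  Finite.injective_iff_bijective.1 (frameFun_injective h)

theorem frameFun_zero : frameFun P P' 0 = 0 := by
  have := frameFun_add (P := P) (P' := P') 0 0
  rwa [add_zero, right_eq_add] at this

theorem frameFun_smul (c : ZMod 2) (v : V) : frameFun P P' (c • v) = c • frameFun P P' v := by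
  rcases z2_cases c with rfl | rfl
  · rw [zero_smul, zero_smul, frameFun_zero]
  · rw [one_smul, one_smul]

theorem fin5_cases : ∀ i : Fin 5, i = 4 ∨ ∃ k : Fin 4, k.castSucc = i := by decide

theorem four_ne : ∀ k : Fin 4, (4 : Fin 5) ≠ k.castSucc := by decide

theorem frameFun_A (h : IsFrames P P') (i : Fin 5) : frameFun P P' (A i) = P i := by
  rcases fin5_cases i with rfl | ⟨k, rfl⟩
  · obtain ⟨w, hw⟩ := (frameFun_bijective h).2 (P 4)
    rw [← hw]
    congr 1
    refine (bl_ext (fun k => ?_) fun k => ?_).symm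
    · rw [← bl_frameFun h w, hw, (frameFun_four k).1, h.blP, isFrames_std.blP]
    · rw [← bl_frameFun h w, hw, (frameFun_four k).2, h.cross, bl_AC]
  · exact (frameFun_four k).1

theorem frameFun_Cc (h : IsFrames P P') (i : Fin 5) : frameFun P P' (Cc i) = P' i := by
  rcases fin5_cases i with rfl | ⟨k, rfl⟩
  · obtain ⟨w, hw⟩ := (frameFun_bijective h).2 (P' 4)
    rw [← hw]
    congr 1
    refine (bl_ext (fun k => ?_) fun k => ?_).symm
    · rw [← bl_frameFun h w, hw, (frameFun_four k).1, bl_comm (P' 4), h.cross, bl_comm (Cc 4), bl_AC]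
    · rw [← bl_frameFun h w, hw, (frameFun_four k).2, h.blP', isFrames_std.blP']
  · exact (frameFun_four k).2

/-- The isometry group. -/
abbrev O : Subgroup (V ≃ₗ[ZMod 2] V) := orth qP

/-- Application. -/
abbrev ap (g : O) (v : V) : V := (g : V ≃ₗ[ZMod 2] V) v

theorem ap_mul (g h : O) (v : V) : ap (g * h) v = ap g (ap h v) := rfl
theorem ap_one (v : V) : ap 1 v = v := rfl
theorem ap_inv_ap (g : O) (v : V) : ap g⁻¹ (ap g v) = v := orth_inv_apply g v
theorem ap_ap_inv (g : O) (v : V) : ap g (ap g⁻¹ v) = v := orth_apply_inv g v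
theorem ap_inj (g : O) {u v : V} (h : ap g u = ap g v) : u = v :=
  (g : V ≃ₗ[ZMod 2] V).injective h
theorem ap_add (g : O) (u v : V) : ap g (u + v) = ap g u + ap g v := map_add _ u v
theorem ap_smul (g : O) (c : ZMod 2) (v : V) : ap g (c • v) = c • ap g v := map_smul _ c v
theorem ap_zero (g : O) : ap g 0 = 0 := map_zero _

theorem q_ap (g : O) (v : V) : q (ap g v) = q v := by
  rw [← qP_apply, ← qP_apply]; exact orth_apply g v

theorem bl_ap (g : O) (u v : V) : bl (ap g u) (ap g v) = bl u v := by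
  rw [← polar_qP, ← polar_qP]; exact polar_apply g u v

theorem ap_cmb (g : O) (Q : Fin 5 → V) (x : Fin 4 → ZMod 2) :
    ap g (cmb Q x) = cmb (fun i => ap g (Q i)) x := by
  simp only [cmb, ap_add, ap_smul]

theorem O_ext {g h : O} (h1 : ∀ i, ap g (A i) = ap h (A i)) (h2 : ∀ i, ap g (Cc i) = ap h (Cc i)) :
    g = h := by
  refine orth_ext fun v => ?_
  change ap g v = ap h v
  rw [← decomp v, ap_add, ap_add, ap_cmb, ap_cmb, ap_cmb, ap_cmb, funext h1, funext h2]

/-- The isometry given by two frames. -/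
noncomputable def frameO (P P' : Fin 5 → V) (h : IsFrames P P') : O :=
  ⟨LinearEquiv.ofBijective
    { toFun := frameFun P P', map_add' := frameFun_add, map_smul' := frameFun_smul }
    (frameFun_bijective h), fun v => by rw [qP_apply, qP_apply]; exact q_frameFun h v⟩

theorem ap_frameO (h : IsFrames P P') (v : V) : ap (frameO P P' h) v = frameFun P P' v := rfl

theorem frameO_A (h : IsFrames P P') (i : Fin 5) : ap (frameO P P' h) (A i) = P i :=
  frameFun_A h i

theorem frameO_Cc (h : IsFrames P P') (i : Fin 5) : ap (frameO P P' h) (Cc i) = P' i :=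
  frameFun_Cc h i

/-- The reflection in a nonsingular vector. -/
noncomputable def R (a : V) (ha : q a = 1) : O :=
  refl qP a (by rw [qP_apply, ha]; exact one_ne_zero)

/-- The map of a reflection. -/
def rf (a x : V) : V := x + bl x a • a

theorem ap_R (a : V) (ha : q a = 1) (x : V) : ap (R a ha) x = rf a x := by
  rw [ap, R, refl_apply, polar_qP, qP_apply, ha, inv_one, one_mul, vsub]
  rfl

theorem R_congr {a b : V} (h : a = b) (ha : q a = 1) (hb : q b = 1) : R a ha = R b hb := by
  subst h; rfl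

theorem conj_R (g : O) {a : V} (ha : q a = 1) :
    g * R a ha * g⁻¹ = R (ap g a) (by rw [q_ap, ha]) := by
  rw [R, conj_refl]; rfl

/-- The vectors linking reflections. -/
def reflLinks : List V := [vec 0 0 0 1 1 0 0 1, vec 0 0 0 1 1 0 1 1, vec 0 0 1 0 1 0 1 0, vec 0 0 1 0 1 0 1 1, vec 0 0 1 1 1 0 0 1, vec 0 0 0 1 1 1 0 1]

/-- The vectors linking singular vectors. -/
def singLinks : List V := [vec 0 0 0 0 1 0 0 0, vec 1 0 0 1 1 0 0 1, vec 1 0 1 0 1 0 1 1, vec 0 0 0 0 1 1 0 0, vec 0 1 0 0 1 0 0 0]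

theorem reflLinks_ok : ∀ c ∈ reflLinks, q c = 1 ∧ bl c (A 0 + A 1) = 1 := by decide +kernel

theorem singLinks_ok : ∀ c ∈ singLinks, q c = 0 ∧ bl c (A 0) = 1 := by decide +kernel

theorem nonsing_link : ∀ a : V, q a = 1 →
    a = A 0 + A 1 ∨ bl a (A 0 + A 1) = 1 ∨ ∃ c ∈ reflLinks, bl a c = 1 := by
  rw [forall_vec]; decide +kernel

theorem sing_link : ∀ a : V, q a = 0 → a ≠ 0 →
    a = A 0 ∨ bl a (A 0) = 1 ∨ ∃ c ∈ singLinks, bl a c = 1 := by
  rw [forall_vec]; decide +kernel

end CfsgLib.ConwayFive
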