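import Cfsg.Agent.Lib.ConwayFive.Swap

/-!
An involution in the centraliser of the element of order five, outside the extraspecial group.
-/

set_option autoImplicit false
set_option linter.unusedSectionVars false
set_option linter.style.haveILetI false
set_option maxRecDepth 100000
set_option synthInstance.maxSize 1000

namespace CfsgLib.ConwayFive

open CfsgLib.ExtraspecialLarge
open CfsgLib.SuzukiType (zp zp_zero zp_one conj_fix_iff)

theorem perp_sing : ∀ v : V, inA v → bl v (A 0) = 0 → q v = 0 → v = 0 ∨ v = A 0 := by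
  rw [forall_vec]; decide +kernel

theorem pair_facts : q (A 1 + A 2) = 1 ∧ q (A 1 + A 3) = 1 ∧ q (A 1 + A 2 + (A 1 + A 3)) = 1 ∧
    bl (A 1 + A 2) (A 0) = 0 ∧ bl (A 1 + A 3) (A 0) = 0 := by decide +kernel

theorem alt_moves : ∀ σ : alternatingGroup (Fin 5), σ * σ = 1 → σ ≠ 1 →
    (σ : Equiv.Perm (Fin 5)) 0 = 0 →
    A ((σ : Equiv.Perm (Fin 5)) 1) + A ((σ : Equiv.Perm (Fin 5)) 2) ≠ A 1 + A 2 ∨
      A ((σ : Equiv.Perm (Fin 5)) 1) + A ((σ : Equiv.Perm (Fin 5)) 3) ≠ A 1 + A 3 := by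
  decide +kernel

theorem alt_moves_two : ∀ σ : alternatingGroup (Fin 5), σ * σ = 1 → σ ≠ 1 →
    (σ : Equiv.Perm (Fin 5)) 0 = 0 →
    A ((σ : Equiv.Perm (Fin 5)) 1) + A ((σ : Equiv.Perm (Fin 5)) 2) = A 1 + A 2 →
    ∀ σ' : alternatingGroup (Fin 5), σ' * σ' = 1 → σ' ≠ 1 → (σ' : Equiv.Perm (Fin 5)) 0 = 0 →
    A ((σ' : Equiv.Perm (Fin 5)) 1) + A ((σ' : Equiv.Perm (Fin 5)) 2) = A 1 + A 2 → σ' = σ := by
  decide +kernel

variable {G : Type*} [Group G] [Finite G]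
variable {z : G} {Qf : G → Subgroup G} {θ : G → V} {ρ : G → O} {J : Subgroup O} {b : G} {a h : G}

namespace Swap

variable (P : Swap z Qf θ ρ J b a h)
include P

/-- The inverse also exchanges. -/
theorem inv : Swap z Qf θ ρ J b a h⁻¹ where
  toSetting := P.toSetting
  a_mem := P.a_mem
  θa := P.θa
  hz := by rw [← P.ha]; group
  ha := by rw [← P.hz]; group
  hb := by
    have hle : Subgroup.zpowers (h * b * h⁻¹) ≤ Subgroup.zpowers b := Subgroup.zpowers_le.2 P.hb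
    have e : orderOf (h * b * h⁻¹) = 5 := by
      show orderOf (MulAut.conj h b) = 5
      rw [MulEquiv.orderOf_eq, P.b_order]
    obtain ⟨m, hm⟩ := Subgroup.mem_zpowers_iff.1 (by
      rw [Subgroup.eq_of_le_of_card_ge hle (by rw [Nat.card_zpowers, Nat.card_zpowers, e, P.b_order])]
      exact Subgroup.mem_zpowers b : b ∈ Subgroup.zpowers (h * b * h⁻¹))
    refine Subgroup.mem_zpowers_iff.2 ⟨m, ?_⟩
    conv_rhs => rw [← hm]
    rw [conj_zpow]
    group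

theorem mem_K0_of_pow_four {x : G} (hz : x * z = z * x) (hb : x * b = b * x) (h4 : x ^ 4 = 1) :
    x ∈ P.toSetting.K0 := by
  have S := P.toSetting
  obtain ⟨k, k0, hk0, rfl⟩ := S.split hz hb
  rw [((show Commute k0 b from S.K0_comm_b hk0).pow_right k).symm.mul_pow, ← pow_mul] at h4
  have h1 : b ^ (k * 4) = 1 := S.b_pow_mem_K0 (by
    rw [eq_inv_of_mul_eq_one_left h4]; exact S.K0.inv_mem (S.K0.pow_mem hk0 4))
  have h2 : b ^ k = 1 := by
    calc b ^ k = b ^ (k * 4 * 4) := by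
          rw [pow_eq_pow_mod k S.b_pow, pow_eq_pow_mod (k * 4 * 4) S.b_pow]; congr 1; omega
      _ = 1 := by rw [pow_mul, h1, one_pow]
  rw [h2, one_mul]; exact hk0

/-- Facts about the image under `h` of an element of `U` centralising `a`. -/
theorem image_facts {u : G} (hu : u ∈ P.toSetting.U) (hua : u * a = a * u) :
    h * u * h⁻¹ ∈ P.toSetting.K0 ∧ (h * u * h⁻¹) * a = a * (h * u * h⁻¹) ∧
      (h * u * h⁻¹) * (h * u * h⁻¹) = zp a (q (θ u)) ∧
      (h * u * h⁻¹ ∈ Qf z → θ u = 0 ∨ θ u = A 0) := by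
  have S := P.toSetting
  have hcz : (h * u * h⁻¹) * z = z * (h * u * h⁻¹) := by
    conv_lhs => rw [← P.ha, show h * u * h⁻¹ * (h * a * h⁻¹) = h * (u * a) * h⁻¹ by group, hua]
    conv_rhs => rw [← P.ha]
    group
  have hca : (h * u * h⁻¹) * a = a * (h * u * h⁻¹) := by
    conv_lhs => rw [← P.hz, show h * u * h⁻¹ * (h * z * h⁻¹) = h * (u * z) * h⁻¹ by group, S.comm_z hu.1]
    conv_rhs => rw [← P.hz]
    group
  have hsq : (h * u * h⁻¹) * (h * u * h⁻¹) = zp a (q (θ u)) := by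
    rw [show h * u * h⁻¹ * (h * u * h⁻¹) = h * (u * u) * h⁻¹ by group, S.sq_eq hu.1]
    rcases z2_cases (q (θ u)) with e | e <;> rw [e]
    · simp
    · rw [zp_one, zp_one, P.hz]
  have h4 : (h * u * h⁻¹) ^ 4 = 1 := by
    rw [show (4 : ℕ) = 2 * 2 from rfl, pow_mul, pow_two (h * u * h⁻¹), hsq]
    rcases z2_cases (q (θ u)) with e | e <;> rw [e]
    · simp
    · rw [zp_one, pow_two, P.a_sq]
  refine ⟨P.mem_K0_of_pow_four hcz (P.conj_comm_b ((S.comm_b_iff hu.1).2 hu)) h4, hca, hsq, fun hQ => ?_⟩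
  refine perp_sing _ hu.2 (by rw [← P.θa]; exact (S.comm_iff hu.1 P.a_mem).1 hua) ?_
  rcases z2_cases (q (θ u)) with e | e
  · exact e
  · exfalso
    rw [e, zp_one] at hsq
    rcases S.good.sq _ hQ with e' | e' <;> rw [hsq] at e'
    exacts [P.a_ne e', P.a_ne_z e']

/-- The permutation attached to `h u h⁻¹`. -/
theorem image_perm {u : G} (hu : u ∈ P.toSetting.U) (hua : u * a = a * u) (hq : q (θ u) = 1) :
    ∃ σ : alternatingGroup (Fin 5), ρ (h * u * h⁻¹) = E (σ : Equiv.Perm (Fin 5)) 1 ∧ σ * σ = 1 ∧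
      σ ≠ 1 ∧ (σ : Equiv.Perm (Fin 5)) 0 = 0 := by
  have S := P.toSetting
  obtain ⟨hK, hca, hsq, hQ⟩ := P.image_facts hu hua
  obtain ⟨σ, hσ⟩ := S.K0_perm hK
  have hz := (S.mem_K0.1 hK).1
  refine ⟨σ, hσ, Subtype.ext (E_inj (τ := 1) (τ' := 1) ?_).1, fun e => ?_, ?_⟩
  · rw [show E (((σ * σ : alternatingGroup (Fin 5))) : Equiv.Perm (Fin 5)) 1 =
      E (σ : Equiv.Perm (Fin 5)) 1 * E (σ : Equiv.Perm (Fin 5)) 1 by rw [E_mul, one_mul]; rfl,
      ← hσ, ← S.ρ_mul _ _ hz hz, hsq, hq, zp_one, S.ρ_of_Q P.a_mem, OneMemClass.coe_one, E_one]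
  · rw [e, OneMemClass.coe_one, E_one] at hσ
    rcases hQ ((S.ρ_ker _ hz).1 hσ) with e' | e'
    · rw [e', q_zero] at hq
      exact zero_ne_one hq
    · rw [e', q_A] at hq
      exact zero_ne_one hq
  · have e := S.ρ_act _ hz a P.a_mem
    rw [conj_fix_iff.2 hca, P.θa, hσ, E_A] at e
    exact (A_injective e).symm

/-- An involution of `K0` outside the extraspecial group. -/
theorem exists_invol : ∃ t : G, ∃ σ : alternatingGroup (Fin 5), t ∈ P.toSetting.K0 ∧ t * t = 1 ∧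
    t ∉ Qf z ∧ ρ t = E (σ : Equiv.Perm (Fin 5)) 1 ∧ σ * σ = 1 ∧ σ ≠ 1 ∧
      (σ : Equiv.Perm (Fin 5)) 0 = 0 := by
  have S := P.toSetting
  obtain ⟨q12, q13, q23, b12, b13⟩ := pair_facts
  obtain ⟨u₁, hu₁, hθ₁⟩ := S.exists_U (inA_add (inA_A 1) (inA_A 2))
  obtain ⟨u₂, hu₂, hθ₂⟩ := S.exists_U (inA_add (inA_A 1) (inA_A 3))
  have hu₁a : u₁ * a = a * u₁ := (S.comm_iff hu₁.1 P.a_mem).2 (by rw [hθ₁, P.θa, b12])
  have hu₂a : u₂ * a = a * u₂ := (S.comm_iff hu₂.1 P.a_mem).2 (by rw [hθ₂, P.θa, b13])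
  have hu₁₂a : u₁ * u₂ * a = a * (u₁ * u₂) :=
    ((show Commute u₁ a from hu₁a).mul_left hu₂a).eq
  obtain ⟨hdK, hda, hdd, -⟩ := P.image_facts hu₁ hu₁a
  obtain ⟨σ, hσ, hσ2, hσ1, hσ0⟩ := P.image_perm hu₁ hu₁a (by rw [hθ₁, q12])
  set d := h * u₁ * h⁻¹ with hd
  rw [hθ₁, q12, zp_one] at hdd
  have hdz := (S.mem_K0.1 hdK).1
  -- the commutator map
  let c : G → G := fun w => d * w * d⁻¹ * w⁻¹
  have hM : ∀ w ∈ S.U, w * a = a * w → c w = 1 ∨ c w = z ∨ c w = a ∨ c w = z * a := by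
    intro w hw hwa
    have hw1 : d * w * d⁻¹ ∈ S.U := S.conj_U hdz hσ hw
    have hc : c w ∈ S.U := S.U.mul_mem hw1 (S.U.inv_mem hw)
    have hca : c w * a = a * c w := by
      show Commute (c w) a
      exact (((show Commute d a from hda).mul_left hwa).mul_left
        (show Commute d a from hda).inv_left).mul_left (show Commute w a from hwa).inv_left
    have hy : h⁻¹ * c w * h ∈ S.U := by
      have hyz : (h⁻¹ * w * h) * z = z * (h⁻¹ * w * h) := by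
        rw [show h⁻¹ * w * h * z = h⁻¹ * (w * (h * z * h⁻¹)) * h by group, P.hz, hwa, ← P.hz]
        group
      obtain ⟨k, k0, hk0, e⟩ := S.split hyz (P.comm_b_conj ((S.comm_b_iff hw.1).2 hw))
      obtain ⟨σ', hσ'⟩ := S.K0_perm hk0
      have hρ : ρ (h⁻¹ * w * h) = E (σ' : Equiv.Perm (Fin 5)) (sh ^ k) := by
        rw [e, S.ρ_mul _ _ ((show Commute b z from S.b_comm).pow_left k).eq (S.mem_K0.1 hk0).1,
          S.ρ_b_pow, hσ', E_mul, one_mul, mul_one]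
      have := S.U.mul_mem hu₁ (S.conj_U hyz hρ (S.U.inv_mem hu₁))
      convert this using 1
      simp only [c, hd]
      group
    have hsq : c w * c w = 1 := by
      rcases S.good.sq _ hc.1 with e | e
      · exact e
      rcases S.good.sq _ hy.1 with e' | e'
      · calc c w * c w = h * (h⁻¹ * c w * h * (h⁻¹ * c w * h)) * h⁻¹ := by group
          _ = 1 := by rw [e']; group
      · exfalso
        apply P.a_ne_z
        rw [← e, ← P.hz, ← e']
        group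
    rcases perp_sing _ hc.2 (by rw [← P.θa]; exact (S.comm_iff hc.1 P.a_mem).1 hca)
      ((S.θ_sq _ hc.1).1 hsq) with e | e
    · rcases (S.θ_ker _ hc.1).1 e with e' | e'
      · exact Or.inl e'
      · exact Or.inr (Or.inl e')
    · rcases S.eq_or_of_θ hc.1 P.a_mem (e.trans P.θa.symm) with e' | e'
      · exact Or.inr (Or.inr (Or.inl e'))
      · exact Or.inr (Or.inr (Or.inr e'))
  -- outside ⟨z⟩
  obtain ⟨w₁, hw₁, hw₁a, hc₁⟩ : ∃ w ∈ S.U, w * a = a * w ∧ (c w = a ∨ c w = z * a) := by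
    have key : ∀ w ∈ S.U, w * a = a * w → ap (ρ d) (θ w) ≠ θ w → c w = a ∨ c w = z * a := by
      intro w hw hwa hne
      have e0 : ∀ t : G, c w = t → θ t = 0 → t ∈ Qf z → False := fun t e ht htQ => hne (by
        rw [← S.ρ_act d hdz w hw.1, show d * w * d⁻¹ = c w * w by simp [c], e,
          S.θ_mul t htQ w hw.1, ht, zero_add])
      rcases hM w hw hwa with e | e | e | e
      · exact (e0 1 e S.θ_one (one_mem _)).elim
      · exact (e0 z e S.θ_z S.z_mem).elim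
      · exact Or.inl e
      · exact Or.inr e
    rcases alt_moves σ hσ2 hσ1 hσ0 with e | e
    · exact ⟨u₁, hu₁, hu₁a, key u₁ hu₁ hu₁a (by rw [hσ, hθ₁, ap_add, E_A, E_A]; exact e)⟩
    · exact ⟨u₂, hu₂, hu₂a, key u₂ hu₂ hu₂a (by rw [hσ, hθ₂, ap_add, E_A, E_A]; exact e)⟩
  -- outside ⟨a⟩
  obtain ⟨w₂, hw₂, hw₂a, hc₂⟩ : ∃ w ∈ S.U, w * a = a * w ∧ (c w = z ∨ c w = z * a) := by
    have key : ∀ w ∈ S.U, w * a = a * w → ap (ρ (h⁻¹ * w * h⁻¹⁻¹)) (θ u₁) ≠ θ u₁ →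
        c w = z ∨ c w = z * a := by
      intro w hw hwa hne
      obtain ⟨hyK, -, -, -⟩ := P.inv.image_facts hw hwa
      have hyz := (S.mem_K0.1 hyK).1
      have e0 : ∀ t : G, h⁻¹ * c w * h = t → θ t = 0 → t ∈ Qf z → False := fun t e ht htQ => hne (by
        rw [← S.ρ_act _ hyz u₁ hu₁.1,
          show h⁻¹ * w * h⁻¹⁻¹ * u₁ * (h⁻¹ * w * h⁻¹⁻¹)⁻¹ = (h⁻¹ * c w * h)⁻¹ * u₁ by
            simp only [c, hd]; group,
          e, S.θ_mul _ ((Qf z).inv_mem htQ) u₁ hu₁.1, S.θ_inv htQ, ht, zero_add])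
      rcases hM w hw hwa with e | e | e | e
      · exact (e0 1 (by rw [e]; group) S.θ_one (one_mem _)).elim
      · exact Or.inl e
      · exact (e0 z (by rw [e, ← P.hz]; group) S.θ_z S.z_mem).elim
      · exact Or.inr e
    obtain ⟨σ₁, hσ₁, s12, s11, s10⟩ := P.inv.image_perm hu₁ hu₁a (by rw [hθ₁, q12])
    obtain ⟨σ₂, hσ₂, s22, s21, s20⟩ := P.inv.image_perm hu₂ hu₂a (by rw [hθ₂, q13])
    by_cases e1 : A ((σ₁ : Equiv.Perm (Fin 5)) 1) + A ((σ₁ : Equiv.Perm (Fin 5)) 2) = A 1 + A 2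
    · refine ⟨u₂, hu₂, hu₂a, key u₂ hu₂ hu₂a ?_⟩
      rw [hσ₂, hθ₁, ap_add, E_A, E_A]
      intro e2
      have heq := alt_moves_two σ₁ s12 s11 s10 e1 σ₂ s22 s21 s20 e2
      obtain ⟨hK12, -, -, hQ12⟩ := P.inv.image_facts (S.U.mul_mem hu₁ hu₂) hu₁₂a
      have hk1 := (S.mem_K0.1 (P.inv.image_facts hu₁ hu₁a).1).1
      have hk2 := (S.mem_K0.1 (P.inv.image_facts hu₂ hu₂a).1).1
      have hρ12 : ρ (h⁻¹ * (u₁ * u₂) * h⁻¹⁻¹) = 1 := by
        rw [show h⁻¹ * (u₁ * u₂) * h⁻¹⁻¹ = (h⁻¹ * u₁ * h⁻¹⁻¹) * (h⁻¹ * u₂ * h⁻¹⁻¹) by group,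
          S.ρ_mul _ _ hk1 hk2, hσ₁, hσ₂, heq, E_mul, one_mul, ← Subgroup.coe_mul, s12,
          OneMemClass.coe_one, E_one]
      have hθ12 := S.θ_mul _ hu₁.1 _ hu₂.1
      rw [hθ₁, hθ₂] at hθ12
      rcases hQ12 ((S.ρ_ker _ (S.mem_K0.1 hK12).1).1 hρ12) with e' | e' <;> rw [hθ12] at e' <;>
        rw [e'] at q23
      · simp at q23
      · rw [q_A] at q23; exact zero_ne_one q23
    · refine ⟨u₁, hu₁, hu₁a, key u₁ hu₁ hu₁a ?_⟩
      rw [hσ₁, hθ₁, ap_add, E_A, E_A]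
      exact e1
  -- an element with commutator `z a`
  obtain ⟨w, hw, hwa, hc⟩ : ∃ w ∈ S.U, w * a = a * w ∧ c w = z * a := by
    rcases hc₁ with e1 | e1
    · rcases hc₂ with e2 | e2
      · refine ⟨w₁ * w₂, S.U.mul_mem hw₁ hw₂, ((show Commute w₁ a from hw₁a).mul_left hw₂a).eq, ?_⟩
        show d * (w₁ * w₂) * d⁻¹ * (w₁ * w₂)⁻¹ = z * a
        calc d * (w₁ * w₂) * d⁻¹ * (w₁ * w₂)⁻¹ = c w₁ * (w₁ * c w₂ * w₁⁻¹) := by
              simp only [c]; group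
          _ = z * a := by rw [e1, e2, conj_fix_iff.2 (S.comm_z hw₁.1), P.az]
      · exact ⟨w₂, hw₂, hw₂a, e2⟩
    · exact ⟨w₁, hw₁, hw₁a, e1⟩
  have hww : w * w = z := by
    refine (S.good.sq w hw.1).resolve_left fun e => ?_
    have hθw := perp_sing _ hw.2 (by rw [← P.θa]; exact (S.comm_iff hw.1 P.a_mem).1 hwa)
      ((S.θ_sq w hw.1).1 e)
    have hdw : d * w = w * d := by
      rcases hθw with e' | e'
      · rcases (S.θ_ker w hw.1).1 e' with rfl | rfl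
        · simp
        · exact hdz
      · rcases S.eq_or_of_θ hw.1 P.a_mem (e'.trans P.θa.symm) with rfl | rfl
        · exact hda
        · exact ((show Commute d z from hdz).mul_right hda).eq
    have : c w = 1 := by
      show d * w * d⁻¹ * w⁻¹ = 1
      rw [hdw]; group
    rw [hc] at this
    exact P.a_ne_z (by
      calc a = z * (z * a) := by rw [← mul_assoc, S.z_sq, one_mul]
        _ = z := by rw [this, mul_one])
  have htt : d * w * (d * w) = 1 := by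
    calc d * w * (d * w) = c w * (w * (d * d) * w) := by simp only [c]; group
      _ = z * (a * a) * (w * w) := by rw [hc, hdd, hwa]; group
      _ = 1 := by rw [P.a_sq, mul_one, hww, S.z_sq]
  have hρt : ρ (d * w) = E (σ : Equiv.Perm (Fin 5)) 1 := by
    rw [S.ρ_mul d w hdz (S.comm_z hw.1), S.ρ_of_Q hw.1, mul_one, hσ]
  refine ⟨d * w, σ, S.K0.mul_mem hdK (S.U_le_K0 hw), htt, fun hQ => ?_, hρt, hσ2, hσ1, hσ0⟩
  rw [S.ρ_of_Q hQ, ← E_one] at hρt
  exact hσ1 (Subtype.ext (E_inj hρt).1.symm)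

end Swap

end CfsgLib.ConwayFive
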