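import Cfsg.Agent.Lib.ConwayFive.Coords

/-!
Permutations of the two frames and a subgroup of index two of the isometry group.
-/

set_option autoImplicit false
set_option maxRecDepth 100000
set_option synthInstance.maxSize 1000

namespace CfsgLib.ConwayFive

open CfsgLib.ClassicalForms Equiv

theorem A_injective : Function.Injective A := by
  intro i j e
  by_contra h
  have := (A_rel i j).2.1
  rw [e, bl_self, if_neg h] at this
  exact zero_ne_one this

theorem Cc_injective : Function.Injective Cc := by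
  intro i j e
  by_contra h
  have := (A_rel i j).2.2.2.2
  rw [e, bl_self, if_neg h] at this
  exact zero_ne_one this

theorem isFrames_perm (σ τ : Perm (Fin 5)) : IsFrames (A ∘ σ) (Cc ∘ τ) :=
  ⟨fun _ => q_A _, fun _ => q_Cc _,
    fun i j => by simp [isFrames_std.blP, σ.injective.eq_iff],
    fun i j => by simp [isFrames_std.blP', τ.injective.eq_iff],
    fun _ _ => bl_AC _ _⟩

/-- The isometry permuting the frames. -/
noncomputable def E (σ τ : Perm (Fin 5)) : O := frameO (A ∘ σ) (Cc ∘ τ) (isFrames_perm σ τ)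

theorem E_A (σ τ : Perm (Fin 5)) (i : Fin 5) : ap (E σ τ) (A i) = A (σ i) := frameO_A _ i

theorem E_Cc (σ τ : Perm (Fin 5)) (i : Fin 5) : ap (E σ τ) (Cc i) = Cc (τ i) := frameO_Cc _ i

theorem E_mul (σ τ σ' τ' : Perm (Fin 5)) : E σ τ * E σ' τ' = E (σ * σ') (τ * τ') :=
  O_ext (fun i => by rw [ap_mul, E_A, E_A, E_A]; rfl) (fun i => by rw [ap_mul, E_Cc, E_Cc, E_Cc]; rfl)

theorem E_one : E 1 1 = 1 :=
  O_ext (fun i => by rw [E_A, ap_one]; rfl) (fun i => by rw [E_Cc, ap_one]; rfl)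

theorem E_inj {σ τ σ' τ' : Perm (Fin 5)} (h : E σ τ = E σ' τ') : σ = σ' ∧ τ = τ' :=
  ⟨Equiv.ext fun i => A_injective (by rw [← E_A σ τ, h, E_A]),
    Equiv.ext fun i => Cc_injective (by rw [← E_Cc σ τ, h, E_Cc])⟩

theorem E_eq_one {σ τ : Perm (Fin 5)} (h : E σ τ = 1) : σ = 1 ∧ τ = 1 := E_inj (h.trans E_one.symm)

theorem E_inv (σ τ : Perm (Fin 5)) : (E σ τ)⁻¹ = E σ⁻¹ τ⁻¹ := by
  rw [inv_eq_iff_mul_eq_one, E_mul, mul_inv_cancel, mul_inv_cancel, E_one]

theorem swap_check : ∀ i j k : Fin 5, i ≠ j → q (A i + A j) = 1 ∧ q (Cc i + Cc j) = 1 ∧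
    rf (A i + A j) (A k) = A (Equiv.swap i j k) ∧ rf (A i + A j) (Cc k) = Cc k ∧
    rf (Cc i + Cc j) (A k) = A k ∧ rf (Cc i + Cc j) (Cc k) = Cc (Equiv.swap i j k) := by
  decide +kernel

theorem R_swap_A {i j : Fin 5} (h : i ≠ j) :
    R (A i + A j) (swap_check i j 0 h).1 = E (Equiv.swap i j) 1 :=
  O_ext (fun k => by rw [ap_R, E_A, (swap_check i j k h).2.2.1])
    (fun k => by rw [ap_R, E_Cc, (swap_check i j k h).2.2.2.1]; rfl)

theorem R_swap_Cc {i j : Fin 5} (h : i ≠ j) :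
    R (Cc i + Cc j) (swap_check i j 0 h).2.1 = E 1 (Equiv.swap i j) :=
  O_ext (fun k => by rw [ap_R, E_A, (swap_check i j k h).2.2.2.2.1]; rfl)
    (fun k => by rw [ap_R, E_Cc, (swap_check i j k h).2.2.2.2.2])

/-- Orthogonal to the second frame. -/
def inA (v : V) : Prop := ∀ i, bl v (Cc i) = 0

/-- Orthogonal to the first frame. -/
def inC (v : V) : Prop := ∀ i, bl v (A i) = 0

instance (v : V) : Decidable (inA v) := inferInstanceAs (Decidable (∀ _, _))
instance (v : V) : Decidable (inC v) := inferInstanceAs (Decidable (∀ _, _))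

theorem inA_A (i : Fin 5) : inA (A i) := fun j => bl_AC i j

theorem inC_Cc (i : Fin 5) : inC (Cc i) := fun j => by rw [bl_comm]; exact bl_AC j i

theorem inA_zero : inA 0 := fun _ => bl_zero_left _

theorem inC_zero : inC 0 := fun _ => bl_zero_left _

theorem inA_add {u v : V} (hu : inA u) (hv : inA v) : inA (u + v) := fun i => by
  rw [bl_add_left, hu, hv, add_zero]

theorem inC_add {u v : V} (hu : inC u) (hv : inC v) : inC (u + v) := fun i => by
  rw [bl_add_left, hu, hv, add_zero]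

theorem eq_cmb_of_inA {v : V} (h : inA v) : v = cmb A (coA v) := by
  have e : coC v = 0 := funext fun i => by simp [coC, h _]
  conv_lhs => rw [← decomp v, e]
  simp [cmb]

theorem eq_cmb_of_inC {v : V} (h : inC v) : v = cmb Cc (coC v) := by
  have e : coA v = 0 := funext fun i => by simp [coA, h _]
  conv_lhs => rw [← decomp v, e]
  simp [cmb]

theorem cmb_mem {P : Fin 5 → V} (H : AddSubgroup V) (h : ∀ i : Fin 4, P i.castSucc ∈ H)
    (x : Fin 4 → ZMod 2) : cmb P x ∈ H := by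
  have hs : ∀ (c : ZMod 2) (v : V), v ∈ H → c • v ∈ H := fun c v hv => by
    rcases z2_cases c with rfl | rfl
    · rw [zero_smul]; exact H.zero_mem
    · rwa [one_smul]
  exact H.add_mem (H.add_mem (H.add_mem (hs _ _ (h 0)) (hs _ _ (h 1))) (hs _ _ (h 2))) (hs _ _ (h 3))

theorem inA_mem (H : AddSubgroup V) (h : ∀ i, A i ∈ H) {v : V} (hv : inA v) : v ∈ H :=
  eq_cmb_of_inA hv ▸ cmb_mem H (fun _ => h _) _

theorem inC_mem (H : AddSubgroup V) (h : ∀ i, Cc i ∈ H) {v : V} (hv : inC v) : v ∈ H :=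
  eq_cmb_of_inC hv ▸ cmb_mem H (fun _ => h _) _

theorem sing_inA : ∀ v : V, inA v → q v = 0 → v = 0 ∨ ∃ j, v = A j := by
  rw [forall_vec]; decide +kernel

theorem sing_inC : ∀ v : V, inC v → q v = 0 → v = 0 ∨ ∃ j, v = Cc j := by
  rw [forall_vec]; decide +kernel

theorem A_ne_zero : ∀ i, A i ≠ 0 := by decide

theorem Cc_ne_zero : ∀ i, Cc i ≠ 0 := by decide

/-- An isometry stabilising the first elliptic space permutes both frames. -/
theorem exists_eq_E {g : O} (h : ∀ i, inA (ap g (A i))) : ∃ σ τ, g = E σ τ := by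
  have hne : ∀ v, v ≠ 0 → ap g v ≠ 0 := fun v hv e => hv (ap_inj g (e.trans (ap_zero g).symm))
  choose s hs using fun i => (sing_inA _ (h i) (by rw [q_ap, q_A])).resolve_left (hne _ (A_ne_zero i))
  have hsb : Function.Bijective s := Finite.injective_iff_bijective.1 fun i j e =>
    A_injective (ap_inj g (by rw [hs, hs, e]))
  have hC : ∀ i, inC (ap g (Cc i)) := fun i j => by
    obtain ⟨k, rfl⟩ := hsb.2 j
    rw [← hs, bl_ap]
    exact inC_Cc i k
  choose t ht using fun i => (sing_inC _ (hC i) (by rw [q_ap, q_Cc])).resolve_left (hne _ (Cc_ne_zero i))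
  have htb : Function.Bijective t := Finite.injective_iff_bijective.1 fun i j e =>
    Cc_injective (ap_inj g (by rw [ht, ht, e]))
  exact ⟨Equiv.ofBijective s hsb, Equiv.ofBijective t htb,
    O_ext (fun i => by rw [E_A, hs]; rfl) (fun i => by rw [E_Cc, ht]; rfl)⟩

theorem exists_eq_E_of_fix_Cc {g : O} (h : ∀ i, ap g (Cc i) = Cc i) : ∃ σ, g = E σ 1 := by
  obtain ⟨σ, τ, rfl⟩ := exists_eq_E (g := g) fun i j => by
    rw [← h j, bl_ap]; exact bl_AC i j
  exact ⟨σ, congrArg (E σ) (Equiv.ext fun i => Cc_injective (by rw [← E_Cc σ, h]; rfl))⟩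

theorem exists_eq_E_of_fix_A {g : O} (h : ∀ i, ap g (A i) = A i) : ∃ τ, g = E 1 τ := by
  obtain ⟨σ, τ, rfl⟩ := exists_eq_E (g := g) fun i => by rw [h]; exact inA_A i
  exact ⟨τ, congrArg (E · τ) (Equiv.ext fun i => A_injective (by rw [← E_A σ τ, h]; rfl))⟩

/-- The five-cycle of the second frame. -/
def sh : Perm (Fin 5) := finRotate 5

theorem sh_apply : ∀ i : Fin 5, sh i = i + 1 := by decide

theorem comm_sh : ∀ τ : Perm (Fin 5), τ * sh = sh * τ → ∃ k : Fin 5, τ = sh ^ (k : ℕ) := by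
  decide +kernel

theorem sign_sh : Equiv.Perm.sign sh = 1 := by decide

theorem sh_pow_five : sh ^ 5 = 1 := by decide

instance : Finite (V ≃ₗ[ZMod 2] V) := Finite.of_injective _ DFunLike.coe_injective

/-- A subgroup of index two. -/
def Half (J : Subgroup O) : Prop := 2 * Nat.card J = Nat.card O

theorem R_conj_of_bl {a b : V} (ha : q a = 1) (hb : q b = 1) (h : bl a b = 1) :
    ∃ g : O, g * R a ha * g⁻¹ = R b hb := by
  have hc : q (a + b) = 1 := by rw [q_add, ha, hb, h]; rfl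
  refine ⟨R (a + b) hc, ?_⟩
  have e : ap (R (a + b) hc) a = b := by
    rw [ap_R, rf, bl_add_right, bl_self a, h, zero_add, one_smul, ← add_assoc, vadd_self, zero_add]
  rw [conj_R]
  exact R_congr e _ _

theorem q_base : q (A 0 + A 1) = 1 := (swap_check 0 1 0 (by decide)).1

theorem R_conj_base {a : V} (ha : q a = 1) : ∃ g : O, g * R (A 0 + A 1) q_base * g⁻¹ = R a ha := by
  rcases nonsing_link a ha with e | h | ⟨c, hc, hac⟩
  · exact ⟨1, by rw [one_mul, inv_one, mul_one]; exact R_congr e.symm _ _⟩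
  · exact R_conj_of_bl _ _ (by rw [bl_comm]; exact h)
  · obtain ⟨h1, h2⟩ := reflLinks_ok c hc
    obtain ⟨g, hg⟩ := R_conj_of_bl q_base h1 (by rw [bl_comm]; exact h2)
    obtain ⟨g', hg'⟩ := R_conj_of_bl h1 ha (by rw [bl_comm]; exact hac)
    exact ⟨g' * g, by rw [← hg', ← hg]; group⟩

namespace Half

variable {J : Subgroup O} (hJ : Half J)
include hJ

theorem index_two : J.index = 2 := by
  have h1 := J.index_mul_card
  rw [← hJ] at h1
  exact Nat.eq_of_mul_eq_mul_right Nat.card_pos h1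

theorem mul_mem_iff {a b : O} : a * b ∈ J ↔ (a ∈ J ↔ b ∈ J) :=
  Subgroup.mul_mem_iff_of_index_two hJ.index_two

theorem conj_mem {a : O} (g : O) (ha : a ∈ J) : g * a * g⁻¹ ∈ J :=
  (Subgroup.normal_of_index_eq_two hJ.index_two).conj_mem a ha g

theorem R_not_mem {a : V} (ha : q a = 1) : R a ha ∉ J := by
  intro hm
  have h1 : R (A 0 + A 1) q_base ∈ J := by
    obtain ⟨g, hg⟩ := R_conj_base ha
    rw [← hg] at hm
    have := hJ.conj_mem g⁻¹ hm
    rw [show g⁻¹ * (g * R (A 0 + A 1) q_base * g⁻¹) * g⁻¹⁻¹ = R (A 0 + A 1) q_base by group] at this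
    exact this
  have hle : reflGroup qP ≤ J := by
    rw [reflGroup, Subgroup.closure_le]
    rintro _ ⟨b, hb, rfl⟩
    have hb1 : q b = 1 := by
      rw [qP_apply] at hb
      exact (z2_cases _).resolve_left hb
    obtain ⟨g, hg⟩ := R_conj_base hb1
    have := hJ.conj_mem g h1
    rw [hg] at this
    exact this
  rw [reflGroup_eq_top (nondeg_qPlus 4) (by simp) (isGen_qPlus 4)] at hle
  have h2 := hJ.index_two
  rw [top_le_iff.1 hle, Subgroup.index_top] at h2
  omega

theorem E_mem_A (σ : Perm (Fin 5)) : E σ 1 ∈ J ↔ Equiv.Perm.sign σ = 1 := by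
  induction σ using Equiv.Perm.swap_induction_on with
  | one => simp [E_one]
  | swap_mul σ x y hxy ih =>
    rw [show E (Equiv.swap x y * σ) 1 = E (Equiv.swap x y) 1 * E σ 1 by rw [E_mul, mul_one],
      hJ.mul_mem_iff, ← R_swap_A hxy, ih, map_mul, Equiv.Perm.sign_swap hxy]
    have := hJ.R_not_mem (swap_check x y 0 hxy).1
    rcases Int.units_eq_one_or (Equiv.Perm.sign σ) with e | e <;> simp [e, this]

theorem E_mem_Cc (τ : Perm (Fin 5)) : E 1 τ ∈ J ↔ Equiv.Perm.sign τ = 1 := by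
  induction τ using Equiv.Perm.swap_induction_on with
  | one => simp [E_one]
  | swap_mul σ x y hxy ih =>
    rw [show E 1 (Equiv.swap x y * σ) = E 1 (Equiv.swap x y) * E 1 σ by rw [E_mul, mul_one],
      hJ.mul_mem_iff, ← R_swap_Cc hxy, ih, map_mul, Equiv.Perm.sign_swap hxy]
    have := hJ.R_not_mem (swap_check x y 0 hxy).2.1
    rcases Int.units_eq_one_or (Equiv.Perm.sign σ) with e | e <;> simp [e, this]

theorem E_mem (σ τ : Perm (Fin 5)) :
    E σ τ ∈ J ↔ Equiv.Perm.sign σ = Equiv.Perm.sign τ := by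
  rw [show E σ τ = E σ 1 * E 1 τ by rw [E_mul, mul_one, one_mul], hJ.mul_mem_iff, hJ.E_mem_A,
    hJ.E_mem_Cc]
  rcases Int.units_eq_one_or (Equiv.Perm.sign σ) with e | e <;>
    rcases Int.units_eq_one_or (Equiv.Perm.sign τ) with e' | e' <;> simp [e, e']

theorem exists_transport {v : V} (hv : q v = 0) (hv0 : v ≠ 0) : ∃ g ∈ J, ap g v = A 0 := by
  have hstep : ∀ v w : V, q v = 0 → q w = 0 → bl v w = 1 → ∃ g : O, ap g v = w := by
    intro v w hv hw h
    have hc : q (v + w) = 1 := by rw [q_add, hv, hw, h]; rfl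
    exact ⟨R (v + w) hc, by
      rw [ap_R, rf, bl_add_right, bl_self v, h, zero_add, one_smul, ← add_assoc, vadd_self, zero_add]⟩
  obtain ⟨g, hg⟩ : ∃ g : O, ap g v = A 0 := by
    rcases sing_link v hv hv0 with rfl | h | ⟨c, hc, hac⟩
    · exact ⟨1, ap_one _⟩
    · exact hstep v _ hv (q_A 0) h
    · obtain ⟨h1, h2⟩ := singLinks_ok c hc
      obtain ⟨g, hg⟩ := hstep v c hv h1 hac
      obtain ⟨g', hg'⟩ := hstep c _ h1 (q_A 0) h2
      exact ⟨g' * g, by rw [ap_mul, hg, hg']⟩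
  by_cases hgJ : g ∈ J
  · exact ⟨g, hgJ, hg⟩
  · refine ⟨E (Equiv.swap 1 2) 1 * g, hJ.mul_mem_iff.2 (iff_of_false ?_ hgJ), ?_⟩
    · rw [hJ.E_mem_A, Equiv.Perm.sign_swap (by decide)]
      decide
    · rw [ap_mul, hg, E_A]
      decide

end Half

end CfsgLib.ConwayFive
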