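import Cfsg.Agent.Lib.ConwayFive.Perms
import Cfsg.Agent.Lib.SuzukiType.Data

/-!
A centraliser of Conway type together with an element of order five, in coordinates.
-/

set_option autoImplicit false
set_option linter.unusedSectionVars false

namespace CfsgLib.ConwayFive

open CfsgLib.ExtraspecialLarge CfsgLib.ClassicalForms
open CfsgLib.SuzukiType (zp zp_zero zp_one zp_add zp_mem zp_comm conj_fix_iff)

variable {G : Type*} [Group G] [Finite G]

/-- The data. -/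
structure Setting (z : G) (Qf : G → Subgroup G) (θ : G → V) (ρ : G → O) (J : Subgroup O) (b : G) :
    Prop where
  core : CoreSetting Qf z
  θ_mul : ∀ x ∈ Qf z, ∀ y ∈ Qf z, θ (x * y) = θ x + θ y
  θ_surj : ∀ v, ∃ x ∈ Qf z, θ x = v
  θ_ker : ∀ x ∈ Qf z, θ x = 0 ↔ x = 1 ∨ x = z
  θ_sq : ∀ x ∈ Qf z, x * x = 1 ↔ q (θ x) = 0
  ρ_act : ∀ c, c * z = z * c → ∀ x ∈ Qf z, θ (c * x * c⁻¹) = ap (ρ c) (θ x)
  ρ_mul : ∀ c d, c * z = z * c → d * z = z * d → ρ (c * d) = ρ c * ρ d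
  ρ_mem : ∀ c, c * z = z * c → ρ c ∈ J
  ρ_surj : ∀ g ∈ J, ∃ c, c * z = z * c ∧ ρ c = g
  ρ_ker : ∀ c, c * z = z * c → (ρ c = 1 ↔ c ∈ Qf z)
  half : Half J
  b_order : orderOf b = 5
  b_comm : b * z = z * b
  ρ_b : ρ b = E 1 sh

namespace Setting

variable {z : G} {Qf : G → Subgroup G} {θ : G → V} {ρ : G → O} {J : Subgroup O} {b : G}
variable (S : Setting z Qf θ ρ J b)
include S

theorem good : Good (Qf z) z := S.core.good
theorem z_mem : z ∈ Qf z := S.good.mem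
theorem z_ne : z ≠ 1 := S.good.ne_one
theorem z_sq : z * z = 1 := S.good.sq_u

theorem comm_z {x : G} (hx : x ∈ Qf z) : x * z = z * x := S.good.comm x hx

theorem conj_mem_Q {c x : G} (hc : c * z = z * c) (hx : x ∈ Qf z) : c * x * c⁻¹ ∈ Qf z :=
  S.good.norm c hc x hx

theorem θ_one : θ 1 = 0 := (S.θ_ker 1 (one_mem _)).2 (Or.inl rfl)

theorem θ_z : θ z = 0 := (S.θ_ker z S.z_mem).2 (Or.inr rfl)

theorem θ_inv {x : G} (hx : x ∈ Qf z) : θ x⁻¹ = θ x := by
  have h := S.θ_mul x hx x⁻¹ ((Qf z).inv_mem hx)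
  rw [mul_inv_cancel, S.θ_one] at h
  exact (vadd_eq_zero.1 h.symm).symm

theorem eq_or_of_θ {x y : G} (hx : x ∈ Qf z) (hy : y ∈ Qf z) (h : θ x = θ y) :
    x = y ∨ x = z * y := by
  have h0 : θ (x * y⁻¹) = 0 := by
    rw [S.θ_mul _ hx _ ((Qf z).inv_mem hy), S.θ_inv hy, h, vadd_self]
  rcases (S.θ_ker _ ((Qf z).mul_mem hx ((Qf z).inv_mem hy))).1 h0 with e | e
  · exact Or.inl (mul_inv_eq_one.1 e)
  · exact Or.inr (mul_inv_eq_iff_eq_mul.1 e)

theorem θ_z_mul {x : G} (hx : x ∈ Qf z) : θ (z * x) = θ x := by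
  rw [S.θ_mul z S.z_mem x hx, S.θ_z, zero_add]

theorem sq_eq {x : G} (hx : x ∈ Qf z) : x * x = zp z (q (θ x)) := by
  rcases z2_cases (q (θ x)) with h | h
  · rw [h, zp_zero]; exact (S.θ_sq x hx).2 h
  · rw [h, zp_one]
    refine (S.good.sq x hx).resolve_left fun e => ?_
    rw [(S.θ_sq x hx).1 e] at h
    exact zero_ne_one h

theorem comm_iff {x y : G} (hx : x ∈ Qf z) (hy : y ∈ Qf z) :
    x * y = y * x ↔ bl (θ x) (θ y) = 0 := by
  have h1 := S.sq_eq ((Qf z).mul_mem hx hy)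
  rw [S.θ_mul x hx y hy, q_add] at h1
  constructor
  · intro e
    have h2 : x * y * (x * y) = zp z (q (θ x) + q (θ y)) := by
      calc x * y * (x * y) = x * (y * x) * y := by group
        _ = x * (x * y) * y := by rw [e]
        _ = x * x * (y * y) := by group
        _ = _ := by rw [S.sq_eq hx, S.sq_eq hy, zp_add S.z_sq]
    rw [h1] at h2
    rcases z2_cases (bl (θ x) (θ y)) with h | h
    · exact h
    · rw [h, zp_add S.z_sq _ 1, zp_one] at h2
      exact absurd (mul_eq_left.1 h2) S.z_ne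
  · intro h
    rw [h, add_zero, zp_add S.z_sq, ← S.sq_eq hx, ← S.sq_eq hy] at h1
    have h3 : x * (y * x) * y = x * (x * y) * y := by simpa only [mul_assoc] using h1
    exact (mul_left_cancel (mul_right_cancel h3)).symm

theorem conj_eq_z {x y : G} (hx : x ∈ Qf z) (hy : y ∈ Qf z) (h : bl (θ x) (θ y) = 1) :
    x * y * x⁻¹ = z * y :=
  S.good.flip_of_not_comm hx hy fun e => one_ne_zero (h.symm.trans ((S.comm_iff hx hy).1 e))

theorem comm_z_mul {c d : G} (hc : c * z = z * c) (hd : d * z = z * d) : c * d * z = z * (c * d) :=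
  ((show Commute c z from hc).mul_left hd).eq

theorem comm_z_inv {c : G} (hc : c * z = z * c) : c⁻¹ * z = z * c⁻¹ :=
  ((show Commute c z from hc).inv_left).eq

theorem ρ_one : ρ 1 = 1 := (S.ρ_ker 1 (by simp)).2 (one_mem _)

theorem ρ_inv {c : G} (hc : c * z = z * c) : ρ c⁻¹ = (ρ c)⁻¹ := by
  refine eq_inv_of_mul_eq_one_left ?_
  rw [← S.ρ_mul _ _ (S.comm_z_inv hc) hc, inv_mul_cancel, S.ρ_one]

theorem ρ_of_Q {x : G} (hx : x ∈ Qf z) : ρ x = 1 := (S.ρ_ker x (S.comm_z hx)).2 hx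

theorem ρ_pow {c : G} (hc : c * z = z * c) (n : ℕ) : ρ (c ^ n) = ρ c ^ n := by
  induction n with
  | zero => rw [pow_zero, pow_zero, S.ρ_one]
  | succ n ih =>
    rw [pow_succ, pow_succ, S.ρ_mul _ _ ((show Commute c z from hc).pow_left n).eq hc, ih]

theorem b_pow : b ^ 5 = 1 := by
  rw [← S.b_order]; exact pow_orderOf_eq_one b

theorem b_ne : b ≠ 1 := fun e => by
  have := S.b_order
  rw [e, orderOf_one] at this
  omega

end Setting

end CfsgLib.ConwayFive
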