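import Cfsg.Agent.Lib.ConwayFive.Setting
import Cfsg.Agent.Lib.InvChar.HallJanko.A5Facts

/-!
The two halves of the extraspecial group, the kernels of the action on either half and the
centraliser of the element of order five inside the involution centraliser.
-/

set_option autoImplicit false
set_option linter.unusedSectionVars false
set_option linter.style.haveILetI false
set_option maxRecDepth 100000

namespace CfsgLib.ConwayFive

open CfsgLib.ExtraspecialLarge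
open CfsgLib.SuzukiType (zp zp_zero zp_one zp_add conj_fix_iff)
open scoped commutatorElement

theorem inA_of_shift : ∀ v : V, (∀ i : Fin 5, bl v (Cc i) = bl v (Cc (i + 1))) → inA v := by
  rw [forall_vec]; decide +kernel

theorem inA_inC_zero {v : V} (h1 : inA v) (h2 : inC v) : v = 0 :=
  bl_ext (fun i => by rw [h2, bl_zero_left]) (fun i => by rw [h1, bl_zero_left])

theorem dual_Cc : ∀ f : Fin 4 → ZMod 2, ∀ i : Fin 4,
    bl (cmb Cc fun j => f j + (f 0 + f 1 + f 2 + f 3)) (Cc i.castSucc) = f i := by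
  decide +kernel

theorem dual_A : ∀ f : Fin 4 → ZMod 2, ∀ i : Fin 4,
    bl (cmb A fun j => f j + (f 0 + f 1 + f 2 + f 3)) (A i.castSucc) = f i := by
  decide +kernel

theorem A_pairs : ∀ i : Fin 5, A i = (A (i + 1) + A (i + 2)) + (A (i + 3) + A (i + 4)) := by
  decide +kernel

theorem Cc_pairs : Cc 0 = (Cc 1 + Cc 2) + (Cc 3 + Cc 4) := by decide +kernel

theorem shift_ne : ∀ i : Fin 5, i + 1 ≠ i + 2 ∧ i + 3 ≠ i + 4 := by decide

theorem inA_E {σ τ : Equiv.Perm (Fin 5)} {v : V} (h : inA v) : inA (ap (E σ τ) v) := fun i => by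
  rw [show Cc i = ap (E σ τ) (Cc (τ⁻¹ i)) by rw [E_Cc]; simp, bl_ap]
  exact h _

theorem inC_E {σ τ : Equiv.Perm (Fin 5)} {v : V} (h : inC v) : inC (ap (E σ τ) v) := fun i => by
  rw [show A i = ap (E σ τ) (A (σ⁻¹ i)) by rw [E_A]; simp, bl_ap]
  exact h _

theorem alt_not_comm : ∃ x y : alternatingGroup (Fin 5), x * y ≠ y * x :=
  ⟨⟨Equiv.swap 0 1 * Equiv.swap 2 3, Equiv.Perm.mem_alternatingGroup.2 (by decide)⟩,
    ⟨Equiv.swap 0 1 * Equiv.swap 1 2, Equiv.Perm.mem_alternatingGroup.2 (by decide)⟩,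
    by decide +kernel⟩

theorem alt_perfect : commutator (alternatingGroup (Fin 5)) = ⊤ := by
  haveI : IsSimpleGroup (alternatingGroup (Fin 5)) := alternatingGroup.isSimpleGroup (by simp)
  refine ((inferInstance : (commutator (alternatingGroup (Fin 5))).Normal).eq_bot_or_eq_top).resolve_left
    fun e => ?_
  obtain ⟨x, y, hxy⟩ := alt_not_comm
  apply hxy
  have h : ⁅x, y⁆ ∈ commutator (alternatingGroup (Fin 5)) :=
    Subgroup.commutator_mem_commutator (Subgroup.mem_top x) (Subgroup.mem_top y)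
  rw [e, Subgroup.mem_bot] at h
  exact commutatorElement_eq_one_iff_mul_comm.1 h

variable {G : Type*} [Group G] [Finite G]
variable {z : G} {Qf : G → Subgroup G} {θ : G → V} {ρ : G → O} {J : Subgroup O} {b : G}

namespace Setting

variable (S : Setting z Qf θ ρ J b)
include S

/-- The part centralised by `b`. -/
def U : Subgroup G where
  carrier := {x | x ∈ Qf z ∧ inA (θ x)}
  one_mem' := ⟨one_mem _, by rw [S.θ_one]; exact inA_zero⟩
  mul_mem' := fun {x y} ⟨hx, h⟩ ⟨hy, h'⟩ =>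
    ⟨(Qf z).mul_mem hx hy, by rw [S.θ_mul x hx y hy]; exact inA_add h h'⟩
  inv_mem' := fun {x} ⟨hx, h⟩ => ⟨(Qf z).inv_mem hx, by rw [S.θ_inv hx]; exact h⟩

/-- The part moved by `b`. -/
def W : Subgroup G where
  carrier := {x | x ∈ Qf z ∧ inC (θ x)}
  one_mem' := ⟨one_mem _, by rw [S.θ_one]; exact inC_zero⟩
  mul_mem' := fun {x y} ⟨hx, h⟩ ⟨hy, h'⟩ =>
    ⟨(Qf z).mul_mem hx hy, by rw [S.θ_mul x hx y hy]; exact inC_add h h'⟩
  inv_mem' := fun {x} ⟨hx, h⟩ => ⟨(Qf z).inv_mem hx, by rw [S.θ_inv hx]; exact h⟩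

theorem mem_U {x : G} : x ∈ S.U ↔ x ∈ Qf z ∧ inA (θ x) := Iff.rfl
theorem mem_W {x : G} : x ∈ S.W ↔ x ∈ Qf z ∧ inC (θ x) := Iff.rfl

theorem z_mem_U : z ∈ S.U := ⟨S.z_mem, by rw [S.θ_z]; exact inA_zero⟩
theorem z_mem_W : z ∈ S.W := ⟨S.z_mem, by rw [S.θ_z]; exact inC_zero⟩

theorem exists_U {v : V} (hv : inA v) : ∃ x ∈ S.U, θ x = v := by
  obtain ⟨x, hx, rfl⟩ := S.θ_surj v
  exact ⟨x, ⟨hx, hv⟩, rfl⟩

theorem exists_W {v : V} (hv : inC v) : ∃ x ∈ S.W, θ x = v := by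
  obtain ⟨x, hx, rfl⟩ := S.θ_surj v
  exact ⟨x, ⟨hx, hv⟩, rfl⟩

theorem comm_UW {u w : G} (hu : u ∈ S.U) (hw : w ∈ S.W) : u * w = w * u := by
  rw [S.comm_iff hu.1 hw.1, eq_cmb_of_inA hu.2, eq_cmb_of_inC hw.2]
  exact isFrames_std.bl_cmb _ _

theorem U_W_inter {x : G} (h1 : x ∈ S.U) (h2 : x ∈ S.W) : x = 1 ∨ x = z :=
  (S.θ_ker x h1.1).1 (inA_inC_zero h1.2 h2.2)

theorem subgroup_of_θ (H : Subgroup G) : ∃ A' : AddSubgroup V,
    ∀ v, v ∈ A' ↔ ∃ y ∈ Qf z, y ∈ H ∧ θ y = v := by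
  refine ⟨{
    carrier := {v | ∃ y ∈ Qf z, y ∈ H ∧ θ y = v}
    zero_mem' := ⟨1, one_mem _, one_mem _, S.θ_one⟩
    add_mem' := fun {v w} ⟨y, hy, hyH, e⟩ ⟨y', hy', hyH', e'⟩ =>
      ⟨y * y', (Qf z).mul_mem hy hy', H.mul_mem hyH hyH', by rw [S.θ_mul y hy y' hy', e, e']⟩
    neg_mem' := fun {v} ⟨y, hy, hyH, e⟩ =>
      ⟨y, hy, hyH, e.trans (funext fun i => (CharTwo.neg_eq (v i)).symm)⟩ }, fun v => Iff.rfl⟩

theorem W_le {H : Subgroup G} (hz : z ∈ H)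
    (h : ∀ i : Fin 4, ∃ y ∈ Qf z, y ∈ H ∧ θ y = Cc i.castSucc) : S.W ≤ H := by
  intro x hx
  obtain ⟨A', hA'⟩ := S.subgroup_of_θ H
  have := cmb_mem A' (fun i => (hA' _).2 (h i)) (coC (θ x))
  rw [← eq_cmb_of_inC hx.2, hA'] at this
  obtain ⟨y, hy, hyH, e⟩ := this
  rcases S.eq_or_of_θ hx.1 hy e.symm with rfl | rfl
  · exact hyH
  · exact H.mul_mem hz hyH

theorem U_le {H : Subgroup G} (hz : z ∈ H)
    (h : ∀ i : Fin 4, ∃ y ∈ Qf z, y ∈ H ∧ θ y = A i.castSucc) : S.U ≤ H := by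
  intro x hx
  obtain ⟨A', hA'⟩ := S.subgroup_of_θ H
  have := cmb_mem A' (fun i => (hA' _).2 (h i)) (coA (θ x))
  rw [← eq_cmb_of_inA hx.2, hA'] at this
  obtain ⟨y, hy, hyH, e⟩ := this
  rcases S.eq_or_of_θ hx.1 hy e.symm with rfl | rfl
  · exact hyH
  · exact H.mul_mem hz hyH

theorem inA_of_comm_W {x : G} (hx : x ∈ Qf z) (h : ∀ w ∈ S.W, x * w = w * x) : inA (θ x) := fun i => by
  obtain ⟨w, hw, e⟩ := S.exists_W (inC_Cc i)
  rw [← e, ← S.comm_iff hx hw.1]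
  exact h w hw

theorem inC_of_comm_U {x : G} (hx : x ∈ Qf z) (h : ∀ w ∈ S.U, x * w = w * x) : inC (θ x) := fun i => by
  obtain ⟨w, hw, e⟩ := S.exists_U (inA_A i)
  rw [← e, ← S.comm_iff hx hw.1]
  exact h w hw

theorem conj_U {c : G} (hc : c * z = z * c) {σ τ : Equiv.Perm (Fin 5)} (he : ρ c = E σ τ) {x : G}
    (hx : x ∈ S.U) : c * x * c⁻¹ ∈ S.U :=
  ⟨S.conj_mem_Q hc hx.1, by rw [S.ρ_act c hc x hx.1, he]; exact inA_E hx.2⟩

theorem conj_W {c : G} (hc : c * z = z * c) {σ τ : Equiv.Perm (Fin 5)} (he : ρ c = E σ τ) {x : G}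
    (hx : x ∈ S.W) : c * x * c⁻¹ ∈ S.W :=
  ⟨S.conj_mem_Q hc hx.1, by rw [S.ρ_act c hc x hx.1, he]; exact inC_E hx.2⟩

theorem ρ_b_pow (k : ℕ) : ρ (b ^ k) = E 1 (sh ^ k) := by
  induction k with
  | zero => rw [pow_zero, pow_zero, S.ρ_one, E_one]
  | succ k ih =>
    rw [pow_succ, pow_succ, S.ρ_mul _ _ ((show Commute b z from S.b_comm).pow_left k).eq S.b_comm, ih,
      S.ρ_b, E_mul, one_mul]

theorem conj_iterate {c x u : G} (hcu : c * u = u * c) (h : c * x * c⁻¹ = u * x) :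
    ∀ k : ℕ, c ^ k * x * (c ^ k)⁻¹ = u ^ k * x := by
  intro k
  induction k with
  | zero => simp
  | succ k ih =>
    calc c ^ (k + 1) * x * (c ^ (k + 1))⁻¹ = c * (c ^ k * x * (c ^ k)⁻¹) * c⁻¹ := by
          rw [pow_succ']; group
      _ = (c * u ^ k * c⁻¹) * (c * x * c⁻¹) := by rw [ih]; group
      _ = u ^ (k + 1) * x := by
        rw [h, conj_fix_iff.2 ((show Commute c u from hcu).pow_right k).eq, pow_succ, mul_assoc]

theorem eq_one_of_pow_five {u : G} (hu : u ∈ Qf z) (h : u ^ 5 = 1) : u = 1 := by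
  have h4 : u ^ 4 = 1 := by
    rw [show (4 : ℕ) = 2 * 2 from rfl, pow_mul, pow_two u]
    rcases S.good.sq u hu with e | e <;> rw [e]
    · simp
    · rw [pow_two]; exact S.z_sq
  rwa [pow_succ, h4, one_mul] at h

theorem comm_b_iff {x : G} (hx : x ∈ Qf z) : x * b = b * x ↔ x ∈ S.U := by
  constructor
  · intro h
    refine ⟨hx, inA_of_shift _ fun i => ?_⟩
    have e : ap (E 1 sh) (θ x) = θ x := by
      rw [← S.ρ_b, ← S.ρ_act b S.b_comm x hx, conj_fix_iff.2 h.symm]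
    conv_rhs => rw [← sh_apply, ← E_Cc 1 sh i, ← e, bl_ap]
  · intro h
    have e : θ (b * x * b⁻¹) = θ x := by
      rw [S.ρ_act b S.b_comm x hx, S.ρ_b, eq_cmb_of_inA h.2, ap_cmb]
      simp only [E_A, Equiv.Perm.one_apply]
    rcases S.eq_or_of_θ (S.conj_mem_Q S.b_comm hx) hx e with e | e
    · exact (conj_fix_iff.1 e).symm
    · exfalso
      have h5 := S.conj_iterate S.b_comm e 5
      rw [S.b_pow, one_mul, inv_one, mul_one] at h5
      exact S.z_ne (S.eq_one_of_pow_five S.z_mem (right_eq_mul.1 h5))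

/-- The centraliser of `W` in the involution centraliser. -/
def K0 : Subgroup G := Subgroup.centralizer ({z} : Set G) ⊓ Subgroup.centralizer (S.W : Set G)

/-- The centraliser of `U` in the involution centraliser. -/
def X0 : Subgroup G := Subgroup.centralizer ({z} : Set G) ⊓ Subgroup.centralizer (S.U : Set G)

theorem mem_K0 {g : G} : g ∈ S.K0 ↔ g * z = z * g ∧ ∀ w ∈ S.W, g * w = w * g := by
  rw [K0, Subgroup.mem_inf, Subgroup.mem_centralizer_singleton_iff, Subgroup.mem_centralizer_iff]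
  exact and_congr_right fun _ => forall₂_congr fun _ _ => eq_comm

theorem mem_X0 {g : G} : g ∈ S.X0 ↔ g * z = z * g ∧ ∀ w ∈ S.U, g * w = w * g := by
  rw [X0, Subgroup.mem_inf, Subgroup.mem_centralizer_singleton_iff, Subgroup.mem_centralizer_iff]
  exact and_congr_right fun _ => forall₂_congr fun _ _ => eq_comm

theorem U_le_K0 : S.U ≤ S.K0 := fun _ hu => S.mem_K0.2 ⟨S.comm_z hu.1, fun _ hw => S.comm_UW hu hw⟩

theorem W_le_X0 : S.W ≤ S.X0 := fun _ hw =>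
  S.mem_X0.2 ⟨S.comm_z hw.1, fun _ hu => (S.comm_UW hu hw).symm⟩

theorem K0_inter_Q {g : G} (hg : g ∈ S.K0) (hQ : g ∈ Qf z) : g ∈ S.U :=
  ⟨hQ, S.inA_of_comm_W hQ (S.mem_K0.1 hg).2⟩

theorem X0_inter_Q {g : G} (hg : g ∈ S.X0) (hQ : g ∈ Qf z) : g ∈ S.W :=
  ⟨hQ, S.inC_of_comm_U hQ (S.mem_X0.1 hg).2⟩

theorem K0_perm {g : G} (hg : g ∈ S.K0) :
    ∃ σ : alternatingGroup (Fin 5), ρ g = E (σ : Equiv.Perm (Fin 5)) 1 := by
  obtain ⟨hgz, hgW⟩ := S.mem_K0.1 hg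
  obtain ⟨σ, hσ⟩ := exists_eq_E_of_fix_Cc (g := ρ g) fun i => by
    obtain ⟨w, hw, e⟩ := S.exists_W (inC_Cc i)
    rw [← e, ← S.ρ_act g hgz w hw.1, conj_fix_iff.2 (hgW w hw)]
  refine ⟨⟨σ, ?_⟩, hσ⟩
  have := S.ρ_mem g hgz
  rw [hσ, S.half.E_mem, map_one] at this
  exact Equiv.Perm.mem_alternatingGroup.2 this

theorem X0_perm {g : G} (hg : g ∈ S.X0) :
    ∃ τ : alternatingGroup (Fin 5), ρ g = E 1 (τ : Equiv.Perm (Fin 5)) := by
  obtain ⟨hgz, hgW⟩ := S.mem_X0.1 hg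
  obtain ⟨τ, hτ⟩ := exists_eq_E_of_fix_A (g := ρ g) fun i => by
    obtain ⟨w, hw, e⟩ := S.exists_U (inA_A i)
    rw [← e, ← S.ρ_act g hgz w hw.1, conj_fix_iff.2 (hgW w hw)]
  refine ⟨⟨τ, ?_⟩, hτ⟩
  have := S.ρ_mem g hgz
  rw [hτ, S.half.E_mem, map_one] at this
  exact Equiv.Perm.mem_alternatingGroup.2 this.symm

theorem exists_K0_hom : ∃ φ : ↥S.K0 →* alternatingGroup (Fin 5),
    (∀ g : ↥S.K0, ρ (g : G) = E (φ g : Equiv.Perm (Fin 5)) 1) ∧ Function.Surjective φ ∧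
      ∀ g : ↥S.K0, φ g = 1 ↔ (g : G) ∈ S.U := by
  classical
  choose σ hσ using fun g : ↥S.K0 => S.K0_perm g.2
  have hmul : ∀ g h : ↥S.K0, σ (g * h) = σ g * σ h := fun g h => by
    refine Subtype.ext (E_inj (τ := 1) (τ' := 1) ?_).1
    rw [← hσ, Subgroup.coe_mul, S.ρ_mul _ _ (S.mem_K0.1 g.2).1 (S.mem_K0.1 h.2).1, hσ, hσ, E_mul,
      one_mul]
    rfl
  refine ⟨MonoidHom.mk' σ hmul, hσ, fun π => ?_, fun g => ?_⟩
  · obtain ⟨c, hc, hρc⟩ := S.ρ_surj (E (π : Equiv.Perm (Fin 5)) 1)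
      ((S.half.E_mem _ _).2 (by rw [map_one]; exact Equiv.Perm.mem_alternatingGroup.1 π.2))
    choose w hw hwθ using fun i : Fin 4 => S.exists_W (inC_Cc i.castSucc)
    have hf : ∀ i, ∃ f : ZMod 2, c * w i * c⁻¹ = zp z f * w i := fun i => by
      rcases S.eq_or_of_θ (S.conj_mem_Q hc (hw i).1) (hw i).1
        (by rw [S.ρ_act c hc _ (hw i).1, hρc, hwθ, E_Cc, Equiv.Perm.one_apply]) with e | e
      · exact ⟨0, by rw [zp_zero, one_mul]; exact e⟩
      · exact ⟨1, by rw [zp_one]; exact e⟩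
    choose f hf using hf
    obtain ⟨x, hx, hxθ⟩ := S.θ_surj (cmb Cc fun j => f j + (f 0 + f 1 + f 2 + f 3))
    have hxz := S.comm_z hx
    have hK : x * c ∈ S.K0 := by
      refine S.mem_K0.2 ⟨S.comm_z_mul hxz hc, fun y hy => ?_⟩
      have hy' := S.W_le (H := Subgroup.centralizer ({x * c} : Set G))
        (Subgroup.mem_centralizer_singleton_iff.2 (S.comm_z_mul hxz hc).symm) (fun i => by
          refine ⟨w i, (hw i).1, Subgroup.mem_centralizer_singleton_iff.2 ?_, hwθ i⟩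
          symm
          rw [← conj_fix_iff]
          calc x * c * w i * (x * c)⁻¹ = x * (c * w i * c⁻¹) * x⁻¹ := by group
            _ = (x * zp z (f i) * x⁻¹) * (x * w i * x⁻¹) := by rw [hf]; group
            _ = w i := by
              rw [conj_fix_iff.2 (CfsgLib.SuzukiType.zp_comm hxz _)]
              have hb1 : bl (θ x) (θ (w i)) = f i := by rw [hxθ, hwθ]; exact dual_Cc f i
              rcases z2_cases (f i) with e | e
              · rw [e] at hb1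
                rw [e, zp_zero, one_mul, conj_fix_iff.2 ((S.comm_iff hx (hw i).1).2 hb1)]
              · rw [e] at hb1
                rw [e, zp_one, S.conj_eq_z hx (hw i).1 hb1, ← mul_assoc, S.z_sq, one_mul]) hy
      exact (Subgroup.mem_centralizer_singleton_iff.1 hy').symm
    refine ⟨⟨x * c, hK⟩, Subtype.ext (E_inj (τ := 1) (τ' := 1) ?_).1⟩
    rw [MonoidHom.mk'_apply, ← hσ]
    show ρ (x * c) = _
    rw [S.ρ_mul _ _ hxz hc, S.ρ_of_Q hx, one_mul, hρc]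
  · rw [MonoidHom.mk'_apply]
    constructor
    · intro h
      refine S.K0_inter_Q g.2 ((S.ρ_ker _ (S.mem_K0.1 g.2).1).1 ?_)
      rw [hσ, h, OneMemClass.coe_one, E_one]
    · intro h
      refine Subtype.ext (E_inj (τ := 1) (τ' := 1) ?_).1
      rw [← hσ, S.ρ_of_Q h.1, OneMemClass.coe_one, E_one]

theorem exists_X0_hom : ∃ φ : ↥S.X0 →* alternatingGroup (Fin 5),
    (∀ g : ↥S.X0, ρ (g : G) = E 1 (φ g : Equiv.Perm (Fin 5))) ∧ Function.Surjective φ ∧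
      ∀ g : ↥S.X0, φ g = 1 ↔ (g : G) ∈ S.W := by
  classical
  choose σ hσ using fun g : ↥S.X0 => S.X0_perm g.2
  have hmul : ∀ g h : ↥S.X0, σ (g * h) = σ g * σ h := fun g h => by
    refine Subtype.ext (E_inj (σ := 1) (σ' := 1) ?_).2
    rw [← hσ, Subgroup.coe_mul, S.ρ_mul _ _ (S.mem_X0.1 g.2).1 (S.mem_X0.1 h.2).1, hσ, hσ, E_mul,
      one_mul]
    rfl
  refine ⟨MonoidHom.mk' σ hmul, hσ, fun π => ?_, fun g => ?_⟩
  · obtain ⟨c, hc, hρc⟩ := S.ρ_surj (E 1 (π : Equiv.Perm (Fin 5)))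
      ((S.half.E_mem _ _).2 (by rw [map_one]; exact (Equiv.Perm.mem_alternatingGroup.1 π.2).symm))
    choose w hw hwθ using fun i : Fin 4 => S.exists_U (inA_A i.castSucc)
    have hf : ∀ i, ∃ f : ZMod 2, c * w i * c⁻¹ = zp z f * w i := fun i => by
      rcases S.eq_or_of_θ (S.conj_mem_Q hc (hw i).1) (hw i).1
        (by rw [S.ρ_act c hc _ (hw i).1, hρc, hwθ, E_A, Equiv.Perm.one_apply]) with e | e
      · exact ⟨0, by rw [zp_zero, one_mul]; exact e⟩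
      · exact ⟨1, by rw [zp_one]; exact e⟩
    choose f hf using hf
    obtain ⟨x, hx, hxθ⟩ := S.θ_surj (cmb A fun j => f j + (f 0 + f 1 + f 2 + f 3))
    have hxz := S.comm_z hx
    have hK : x * c ∈ S.X0 := by
      refine S.mem_X0.2 ⟨S.comm_z_mul hxz hc, fun y hy => ?_⟩
      have hy' := S.U_le (H := Subgroup.centralizer ({x * c} : Set G))
        (Subgroup.mem_centralizer_singleton_iff.2 (S.comm_z_mul hxz hc).symm) (fun i => by
          refine ⟨w i, (hw i).1, Subgroup.mem_centralizer_singleton_iff.2 ?_, hwθ i⟩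
          symm
          rw [← conj_fix_iff]
          calc x * c * w i * (x * c)⁻¹ = x * (c * w i * c⁻¹) * x⁻¹ := by group
            _ = (x * zp z (f i) * x⁻¹) * (x * w i * x⁻¹) := by rw [hf]; group
            _ = w i := by
              rw [conj_fix_iff.2 (CfsgLib.SuzukiType.zp_comm hxz _)]
              have hb1 : bl (θ x) (θ (w i)) = f i := by rw [hxθ, hwθ]; exact dual_A f i
              rcases z2_cases (f i) with e | e
              · rw [e] at hb1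
                rw [e, zp_zero, one_mul, conj_fix_iff.2 ((S.comm_iff hx (hw i).1).2 hb1)]
              · rw [e] at hb1
                rw [e, zp_one, S.conj_eq_z hx (hw i).1 hb1, ← mul_assoc, S.z_sq, one_mul]) hy
      exact (Subgroup.mem_centralizer_singleton_iff.1 hy').symm
    refine ⟨⟨x * c, hK⟩, Subtype.ext (E_inj (σ := 1) (σ' := 1) ?_).2⟩
    rw [MonoidHom.mk'_apply, ← hσ]
    show ρ (x * c) = _
    rw [S.ρ_mul _ _ hxz hc, S.ρ_of_Q hx, one_mul, hρc]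
  · rw [MonoidHom.mk'_apply]
    constructor
    · intro h
      refine S.X0_inter_Q g.2 ((S.ρ_ker _ (S.mem_X0.1 g.2).1).1 ?_)
      rw [hσ, h, OneMemClass.coe_one, E_one]
    · intro h
      refine Subtype.ext (E_inj (σ := 1) (σ' := 1) ?_).2
      rw [← hσ, S.ρ_of_Q h.1, OneMemClass.coe_one, E_one]

theorem K0_comm_b {g : G} (hg : g ∈ S.K0) : g * b = b * g := by
  obtain ⟨hgz, hgW⟩ := S.mem_K0.1 hg
  obtain ⟨σ, hσ⟩ := S.K0_perm hg
  have hbi := S.comm_z_inv S.b_comm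
  have hconj : b * g * b⁻¹ ∈ S.K0 := by
    refine S.mem_K0.2 ⟨S.comm_z_mul (S.comm_z_mul S.b_comm hgz) hbi, fun w hw => ?_⟩
    have hw' : b⁻¹ * w * b⁻¹⁻¹ ∈ S.W :=
      S.conj_W hbi (σ := 1) (τ := sh⁻¹) (by rw [S.ρ_inv S.b_comm, S.ρ_b, E_inv, inv_one]) hw
    rw [inv_inv] at hw'
    calc b * g * b⁻¹ * w = b * (g * (b⁻¹ * w * b)) * b⁻¹ := by group
      _ = b * ((b⁻¹ * w * b) * g) * b⁻¹ := by rw [hgW _ hw']
      _ = w * (b * g * b⁻¹) := by group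
  have hu : b * g * b⁻¹ * g⁻¹ ∈ S.U := by
    refine S.K0_inter_Q (S.K0.mul_mem hconj (S.K0.inv_mem hg)) ((S.ρ_ker _ ?_).1 ?_)
    · exact S.comm_z_mul (S.mem_K0.1 hconj).1 (S.comm_z_inv hgz)
    · rw [S.ρ_mul _ _ (S.mem_K0.1 hconj).1 (S.comm_z_inv hgz),
        S.ρ_mul _ _ (S.comm_z_mul S.b_comm hgz) hbi, S.ρ_mul _ _ S.b_comm hgz, S.ρ_inv S.b_comm,
        S.ρ_inv hgz, S.ρ_b, hσ]
      simp only [E_inv, E_mul]
      simp [E_one]
  have hub : b * (b * g * b⁻¹ * g⁻¹) = (b * g * b⁻¹ * g⁻¹) * b := ((S.comm_b_iff hu.1).2 hu).symm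
  have h5 := S.conj_iterate hub (show b * g * b⁻¹ = (b * g * b⁻¹ * g⁻¹) * g by group) 5
  rw [S.b_pow, one_mul, inv_one, mul_one] at h5
  have := S.eq_one_of_pow_five hu.1 (right_eq_mul.1 h5 |>.trans rfl)
  exact (conj_fix_iff.1 (mul_inv_eq_one.1 this)).symm

theorem b_pow_not_Q {k : ℕ} (h : b ^ k ∈ Qf z) : b ^ k = 1 := by
  refine S.eq_one_of_pow_five h ?_
  rw [← pow_mul, mul_comm, pow_mul, S.b_pow, one_pow]

theorem b_pow_mem_K0 {k : ℕ} (h : b ^ k ∈ S.K0) : b ^ k = 1 := by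
  obtain ⟨σ, hσ⟩ := S.K0_perm h
  rw [S.ρ_b_pow] at hσ
  refine S.b_pow_not_Q ((S.ρ_ker _ ((show Commute b z from S.b_comm).pow_left k).eq).1 ?_)
  rw [S.ρ_b_pow, (E_inj hσ).2, E_one]

theorem K0_inter_zpowers {x : G} (h1 : x ∈ S.K0) (h2 : x ∈ Subgroup.zpowers b) : x = 1 := by
  obtain ⟨k, rfl⟩ := (isOfFinOrder_of_finite b).mem_powers_iff_mem_zpowers.2 h2
  exact S.b_pow_mem_K0 h1

/-- The centraliser of `b` inside the involution centraliser. -/
theorem split {g : G} (hgz : g * z = z * g) (hgb : g * b = b * g) :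
    ∃ k : ℕ, ∃ k0 ∈ S.K0, g = b ^ k * k0 := by
  have hcomm : ρ g * E 1 sh = E 1 sh * ρ g := by
    rw [← S.ρ_b, ← S.ρ_mul _ _ hgz S.b_comm, hgb, S.ρ_mul _ _ S.b_comm hgz]
  obtain ⟨σ, τ, hρ⟩ := exists_eq_E (g := ρ g) fun i => by
    refine inA_of_shift _ fun j => ?_
    have e : ap (E 1 sh) (ap (ρ g) (A i)) = ap (ρ g) (A i) := by
      rw [← ap_mul, ← hcomm, ap_mul, E_A, Equiv.Perm.one_apply]
    conv_rhs => rw [← sh_apply, ← E_Cc 1 sh j, ← e, bl_ap]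
  rw [hρ, E_mul, E_mul] at hcomm
  obtain ⟨k, hk⟩ := comm_sh τ (E_inj hcomm).2
  have hkz : (b ^ (k : ℕ))⁻¹ * z = z * (b ^ (k : ℕ))⁻¹ :=
    S.comm_z_inv ((show Commute b z from S.b_comm).pow_left _).eq
  refine ⟨k, (b ^ (k : ℕ))⁻¹ * g, ?_, by group⟩
  set h := (b ^ (k : ℕ))⁻¹ * g with hh
  have hhz : h * z = z * h := S.comm_z_mul hkz hgz
  have hhb : h * b = b * h :=
    (((show Commute b b from rfl).pow_left (k : ℕ)).inv_left.mul_left hgb).eq
  have hρh : ρ h = E σ 1 := by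
    rw [hh, S.ρ_mul _ _ hkz hgz, S.ρ_inv ((show Commute b z from S.b_comm).pow_left _).eq, S.ρ_b_pow,
      hρ, hk, E_inv, E_mul, inv_one, one_mul, inv_mul_cancel]
  refine S.mem_K0.2 ⟨hhz, ?_⟩
  choose w hw hwθ using fun i : Fin 5 => S.exists_W (inC_Cc i)
  have hH : ∀ i, h * w i * h⁻¹ = w i ∨ h * w i * h⁻¹ = z * w i := fun i =>
    S.eq_or_of_θ (S.conj_mem_Q hhz (hw i).1) (hw i).1
      (by rw [S.ρ_act h hhz _ (hw i).1, hρh, hwθ, E_Cc, Equiv.Perm.one_apply])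
  -- the sign is independent of `i`
  have hnext : ∀ i, h * w i * h⁻¹ = z * w i → h * w (i + 1) * h⁻¹ = z * w (i + 1) := by
    intro i e
    have hbw : θ (b * w i * b⁻¹) = θ (w (i + 1)) := by
      rw [S.ρ_act b S.b_comm _ (hw i).1, S.ρ_b, hwθ, hwθ, E_Cc, sh_apply]
    have hzb : b * z * b⁻¹ = z := conj_fix_iff.2 S.b_comm
    have e' : h * (b * w i * b⁻¹) * h⁻¹ = z * (b * w i * b⁻¹) := by
      calc h * (b * w i * b⁻¹) * h⁻¹ = (h * b) * w i * (h * b)⁻¹ := by group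
        _ = b * (h * w i * h⁻¹) * b⁻¹ := by rw [hhb]; group
        _ = (b * z * b⁻¹) * (b * w i * b⁻¹) := by rw [e]; group
        _ = _ := by rw [hzb]
    rcases S.eq_or_of_θ (S.conj_mem_Q S.b_comm (hw i).1) (hw (i + 1)).1 hbw with a | a
    · rwa [a] at e'
    · rw [a] at e'
      rw [show h * (z * w (i + 1)) * h⁻¹ = (h * z * h⁻¹) * (h * w (i + 1) * h⁻¹) by group,
        conj_fix_iff.2 hhz] at e'
      exact mul_left_cancel e'
  have hpair : ∀ i j, h * w i * h⁻¹ = z * w i → h * w j * h⁻¹ = z * w j →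
      h * (w i * w j) = (w i * w j) * h := by
    intro i j ei ej
    rw [← conj_fix_iff]
    calc h * (w i * w j) * h⁻¹ = (h * w i * h⁻¹) * (h * w j * h⁻¹) := by group
      _ = z * (w i * z) * w j := by rw [ei, ej]; group
      _ = w i * w j := by rw [S.comm_z (hw i).1, ← mul_assoc, S.z_sq, one_mul]
  have hfix : ∀ i, h * w i * h⁻¹ = w i := by
    intro i
    refine (hH i).resolve_right fun e => ?_
    have hall : ∀ j, h * w j * h⁻¹ = z * w j := fun j => by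
      have h1 := hnext i e
      have h2 := hnext _ h1
      have h3 := hnext _ h2
      have h4 := hnext _ h3
      have hcases : ∀ i j : Fin 5, j = i ∨ j = i + 1 ∨ j = i + 1 + 1 ∨ j = i + 1 + 1 + 1 ∨
          j = i + 1 + 1 + 1 + 1 := by decide
      rcases hcases i j with rfl | rfl | rfl | rfl | rfl <;> assumption
    have hy : h * (w 1 * w 2 * (w 3 * w 4)) = (w 1 * w 2 * (w 3 * w 4)) * h :=
      ((show Commute h (w 1 * w 2) from hpair _ _ (hall 1) (hall 2)).mul_right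
        (hpair _ _ (hall 3) (hall 4))).eq
    have hm : ∀ i, w i ∈ Qf z := fun i => (hw i).1
    rcases S.eq_or_of_θ (hm 0) ((Qf z).mul_mem ((Qf z).mul_mem (hm 1) (hm 2))
        ((Qf z).mul_mem (hm 3) (hm 4)))
      (by rw [S.θ_mul _ ((Qf z).mul_mem (hm 1) (hm 2)) _ ((Qf z).mul_mem (hm 3) (hm 4)),
        S.θ_mul _ (hm 1) _ (hm 2), S.θ_mul _ (hm 3) _ (hm 4), hwθ, hwθ, hwθ, hwθ, hwθ]
          ; exact Cc_pairs) with a | a
    · have h0 := hall 0
      rw [a, conj_fix_iff.2 hy] at h0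
      exact S.z_ne (right_eq_mul.1 h0)
    · have h0 := hall 0
      rw [a, conj_fix_iff.2 ((show Commute h z from hhz).mul_right hy).eq] at h0
      exact S.z_ne (right_eq_mul.1 h0)
  intro y hy
  have := S.W_le (H := Subgroup.centralizer ({h} : Set G))
    (Subgroup.mem_centralizer_singleton_iff.2 hhz.symm)
    (fun i => ⟨w i.castSucc, (hw _).1,
      Subgroup.mem_centralizer_singleton_iff.2 (conj_fix_iff.1 (hfix _)).symm, hwθ _⟩) hy
  exact (Subgroup.mem_centralizer_singleton_iff.1 this).symm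

theorem K0_perfect : ⁅S.K0, S.K0⁆ = S.K0 := by
  refine le_antisymm (Subgroup.commutator_le.2 fun g hg h hh =>
    S.K0.mul_mem (S.K0.mul_mem (S.K0.mul_mem hg hh) (S.K0.inv_mem hg)) (S.K0.inv_mem hh)) ?_
  obtain ⟨φ, hφ, hφs, hφk⟩ := S.exists_K0_hom
  have hUD : S.U ≤ ⁅S.K0, S.K0⁆ := by
    choose a ha haθ using fun i : Fin 5 => S.exists_U (inA_A i)
    have hm : ∀ i, a i ∈ Qf z := fun i => (ha i).1
    have hzD : z ∈ ⁅S.K0, S.K0⁆ := by
      have := Subgroup.commutator_mem_commutator (S.U_le_K0 (ha 0)) (S.U_le_K0 (ha 1))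
      rwa [commutatorElement_def, S.conj_eq_z (hm 0) (hm 1)
        (by rw [haθ, haθ]; exact (A_rel 0 1).2.1), mul_inv_cancel_right] at this
    have hpair : ∀ i j, i ≠ j → ∃ y ∈ Qf z, y ∈ ⁅S.K0, S.K0⁆ ∧ θ y = A i + A j := by
      intro i j hij
      obtain ⟨π, hπ⟩ := CfsgLib.InvChar.HallJanko.alt_transitive i j
      obtain ⟨g, hg⟩ := hφs π
      have hgz := (S.mem_K0.1 g.2).1
      have hc : (g : G) * a i * (g : G)⁻¹ ∈ Qf z := S.conj_mem_Q hgz (hm i)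
      refine ⟨(g : G) * a i * (g : G)⁻¹ * (a i)⁻¹, (Qf z).mul_mem hc ((Qf z).inv_mem (hm i)), ?_, ?_⟩
      · rw [← commutatorElement_def]
        exact Subgroup.commutator_mem_commutator g.2 (S.U_le_K0 (ha i))
      · rw [S.θ_mul _ hc _ ((Qf z).inv_mem (hm i)), S.θ_inv (hm i), S.ρ_act _ hgz _ (hm i), hφ, hg,
          haθ, E_A, hπ, add_comm]
    refine S.U_le hzD fun i => ?_
    obtain ⟨y1, h1, h1D, e1⟩ := hpair _ _ (shift_ne i.castSucc).1
    obtain ⟨y2, h2, h2D, e2⟩ := hpair _ _ (shift_ne i.castSucc).2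
    exact ⟨y1 * y2, (Qf z).mul_mem h1 h2, (⁅S.K0, S.K0⁆).mul_mem h1D h2D, by
      rw [S.θ_mul _ h1 _ h2, e1, e2]; exact (A_pairs _).symm⟩
  intro g hg
  have htop : (commutator ↥S.K0).map φ = ⊤ := by
    rw [commutator_def, Subgroup.map_commutator, Subgroup.map_top_of_surjective φ hφs, ← commutator_def,
      alt_perfect]
  obtain ⟨d, hd, hde⟩ : φ ⟨g, hg⟩ ∈ (commutator ↥S.K0).map φ := htop ▸ Subgroup.mem_top _
  have hdD : (d : G) ∈ ⁅S.K0, S.K0⁆ := by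
    have := Subgroup.map_commutator ⊤ ⊤ S.K0.subtype
    rw [← MonoidHom.range_eq_map, Subgroup.range_subtype] at this
    rw [← this]
    exact ⟨d, hd, rfl⟩
  have hu : g * (d : G)⁻¹ ∈ S.U :=
    (hφk (⟨g, hg⟩ * d⁻¹)).1 (by rw [map_mul, map_inv, hde, mul_inv_cancel])
  have := (⁅S.K0, S.K0⁆).mul_mem (hUD hu) hdD
  rwa [inv_mul_cancel_right] at this

theorem K0_comm_X0 {g y : G} (hg : g ∈ S.K0) (hy : y ∈ S.X0) : g * y = y * g := by
  have hyz := (S.mem_X0.1 hy).1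
  obtain ⟨τ, hτ⟩ := S.X0_perm hy
  have key : ∀ g ∈ S.K0, g * y * g⁻¹ = y ∨ g * y * g⁻¹ = z * y := by
    intro g hg
    obtain ⟨hgz, hgW⟩ := S.mem_K0.1 hg
    obtain ⟨σ, hσ⟩ := S.K0_perm hg
    set c := g * y * g⁻¹ * y⁻¹ with hc
    have hcz : c * z = z * c :=
      S.comm_z_mul (S.comm_z_mul (S.comm_z_mul hgz hyz) (S.comm_z_inv hgz)) (S.comm_z_inv hyz)
    have hcQ : c ∈ Qf z := by
      refine (S.ρ_ker c hcz).1 ?_
      rw [hc, S.ρ_mul _ _ (S.comm_z_mul (S.comm_z_mul hgz hyz) (S.comm_z_inv hgz)) (S.comm_z_inv hyz),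
        S.ρ_mul _ _ (S.comm_z_mul hgz hyz) (S.comm_z_inv hgz), S.ρ_mul _ _ hgz hyz, S.ρ_inv hgz,
        S.ρ_inv hyz, hσ, hτ]
      simp only [E_inv, E_mul]
      simp [E_one]
    have h1 : inA (θ c) := S.inA_of_comm_W hcQ fun w hw => by
      have hw' : y⁻¹ * w * y⁻¹⁻¹ ∈ S.W :=
        S.conj_W (S.comm_z_inv hyz) (by rw [S.ρ_inv hyz, hτ, E_inv]) hw
      rw [inv_inv] at hw'
      rw [← conj_fix_iff]
      have e1 : g⁻¹ * (y⁻¹ * w * y) * g = y⁻¹ * w * y := by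
        rw [mul_assoc, ← hgW _ hw', inv_mul_cancel_left]
      have e2 : g * w * g⁻¹ = w := conj_fix_iff.2 (hgW w hw)
      calc c * w * c⁻¹ = g * (y * (g⁻¹ * (y⁻¹ * w * y) * g) * y⁻¹) * g⁻¹ := by rw [hc]; group
        _ = g * w * g⁻¹ := by rw [e1]; group
        _ = w := e2
    have h2 : inC (θ c) := S.inC_of_comm_U hcQ fun u hu => by
      obtain ⟨-, hyU⟩ := S.mem_X0.1 hy
      have hu' : g⁻¹ * u * g⁻¹⁻¹ ∈ S.U :=
        S.conj_U (S.comm_z_inv hgz) (by rw [S.ρ_inv hgz, hσ, E_inv]) hu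
      rw [inv_inv] at hu'
      rw [← conj_fix_iff]
      have e1 : y⁻¹ * u * y = u := by rw [mul_assoc, ← hyU u hu, inv_mul_cancel_left]
      have e2 : y * (g⁻¹ * u * g) * y⁻¹ = g⁻¹ * u * g := conj_fix_iff.2 (hyU _ hu')
      calc c * u * c⁻¹ = g * (y * (g⁻¹ * (y⁻¹ * u * y) * g) * y⁻¹) * g⁻¹ := by rw [hc]; group
        _ = g * (g⁻¹ * u * g) * g⁻¹ := by rw [e1, e2]
        _ = u := by group
    rcases S.U_W_inter (x := c) ⟨hcQ, h1⟩ ⟨hcQ, h2⟩ with e | e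
    · exact Or.inl (mul_inv_eq_one.1 e)
    · exact Or.inr (mul_inv_eq_iff_eq_mul.1 e)
  let H : Subgroup G := S.K0 ⊓ Subgroup.centralizer ({y} : Set G)
  suffices S.K0 ≤ H from Subgroup.mem_centralizer_singleton_iff.1 (this hg).2
  rw [← S.K0_perfect, Subgroup.commutator_le]
  intro g hg h hh
  refine ⟨S.K0_perfect.le (Subgroup.commutator_mem_commutator hg hh),
    Subgroup.mem_centralizer_singleton_iff.2 (conj_fix_iff.1 ?_)⟩
  have hz1 : ∀ t ∈ S.K0, t * z * t⁻¹ = z := fun t ht => conj_fix_iff.2 (S.mem_K0.1 ht).1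
  have hs : ∀ g ∈ S.K0, ∃ e : ZMod 2, g * y * g⁻¹ = zp z e * y ∧ g⁻¹ * y * g = zp z e * y := by
    intro g hg
    rcases key g hg with a | a
    · refine ⟨0, by rw [zp_zero, one_mul]; exact a, ?_⟩
      rw [zp_zero, one_mul]
      conv_lhs => rw [← a]
      group
    · refine ⟨1, by rw [zp_one]; exact a, ?_⟩
      rw [zp_one]
      have : g⁻¹ * y * g = z * (g⁻¹ * (z * y) * g) := by
        rw [show g⁻¹ * (z * y) * g = (g⁻¹ * z * g) * (g⁻¹ * y * g) by group,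
          show g⁻¹ * z * g = z by rw [mul_assoc, ← (S.mem_K0.1 hg).1, inv_mul_cancel_left],
          ← mul_assoc, S.z_sq, one_mul]
      rw [this]
      nth_rewrite 1 [← a]
      group
  obtain ⟨e1, a1, b1⟩ := hs g hg
  obtain ⟨e2, a2, b2⟩ := hs h hh
  have hze : ∀ (e : ZMod 2) (t : G), t ∈ S.K0 → t * zp z e * t⁻¹ = zp z e := fun e t ht =>
    conj_fix_iff.2 (CfsgLib.SuzukiType.zp_comm (S.mem_K0.1 ht).1 e)
  have c2 : g⁻¹ * (h⁻¹ * y * h) * g = zp z e2 * (zp z e1 * y) := by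
    rw [b2, show g⁻¹ * (zp z e2 * y) * g = (g⁻¹ * zp z e2 * g⁻¹⁻¹) * (g⁻¹ * y * g) by group,
      hze _ _ (S.K0.inv_mem hg), b1]
  have c3 : h * (g⁻¹ * (h⁻¹ * y * h) * g) * h⁻¹ = zp z e2 * (zp z e1 * (zp z e2 * y)) := by
    rw [c2, show h * (zp z e2 * (zp z e1 * y)) * h⁻¹ =
      (h * zp z e2 * h⁻¹) * ((h * zp z e1 * h⁻¹) * (h * y * h⁻¹)) by group, hze _ _ hh, hze _ _ hh, a2]
  calc ⁅g, h⁆ * y * (⁅g, h⁆)⁻¹ = g * (h * (g⁻¹ * (h⁻¹ * y * h) * g) * h⁻¹) * g⁻¹ := by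
        rw [commutatorElement_def]; group
    _ = (g * zp z e2 * g⁻¹) * ((g * zp z e1 * g⁻¹) * ((g * zp z e2 * g⁻¹) * (g * y * g⁻¹))) := by
        rw [c3]; group
    _ = y := by
        rw [hze _ _ hg, hze _ _ hg, a1, ← mul_assoc, ← mul_assoc, ← mul_assoc, ← zp_add S.z_sq,
          ← zp_add S.z_sq, ← zp_add S.z_sq,
          (by decide : ∀ s t : ZMod 2, t + s + t + s = 0) e1 e2, zp_zero, one_mul]

/-- The centraliser of `K0`. -/
theorem centralizer_K0 : Subgroup.centralizer (S.K0 : Set G) = S.X0 := by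
  refine le_antisymm (fun x hx => ?_) fun x hx =>
    Subgroup.mem_centralizer_iff.2 fun g hg => S.K0_comm_X0 hg hx
  rw [Subgroup.mem_centralizer_iff] at hx
  exact S.mem_X0.2 ⟨(hx z (S.U_le_K0 S.z_mem_U)).symm, fun u hu => (hx u (S.U_le_K0 hu)).symm⟩

end Setting

end CfsgLib.ConwayFive
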