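import Cfsg.Agent.Lib.ConwayFive.Split

/-!
An element exchanging the involution with an involution of `U` and normalising the group of order
five.
-/

set_option autoImplicit false
set_option linter.unusedSectionVars false
set_option linter.style.haveILetI false

namespace CfsgLib.ConwayFive

open CfsgLib.ExtraspecialLarge
open CfsgLib.SuzukiType (conj_fix_iff)

theorem alt_five_fix : ∀ σ : alternatingGroup (Fin 5), σ ^ 5 = 1 →
    (σ : Equiv.Perm (Fin 5)) 0 = 0 → σ = 1 := by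
  decide +kernel

variable {G : Type*} [Group G] [Finite G]
variable {z : G} {Qf : G → Subgroup G} {θ : G → V} {ρ : G → O} {J : Subgroup O} {b : G}

/-- An exchanging element. -/
structure Swap (z : G) (Qf : G → Subgroup G) (θ : G → V) (ρ : G → O) (J : Subgroup O) (b : G)
    (a h : G) : Prop extends Setting z Qf θ ρ J b where
  a_mem : a ∈ Qf z
  θa : θ a = A 0
  hz : h * z * h⁻¹ = a
  ha : h * a * h⁻¹ = z
  hb : h * b * h⁻¹ ∈ Subgroup.zpowers b

namespace Setting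

variable (S : Setting z Qf θ ρ J b)
include S

theorem eq_one_of_five_pow {x : G} {n : ℕ} (hx : x ^ 5 ^ n = 1) (hQ : x ∈ Qf z) : x = 1 := by
  have h4 : x ^ 4 = 1 := by
    rw [show (4 : ℕ) = 2 * 2 from rfl, pow_mul, pow_two x]
    rcases S.good.sq x hQ with e | e <;> rw [e]
    · simp
    · rw [pow_two]; exact S.z_sq
  refine orderOf_eq_one_iff.1 (Nat.eq_one_of_dvd_coprimes (a := 5 ^ n) (b := 4) ?_
    (orderOf_dvd_of_pow_eq_one hx) (orderOf_dvd_of_pow_eq_one h4))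
  exact Nat.Coprime.pow_left n (by norm_num)

theorem five_elements {a g : G} (ha : a ∈ S.U) (hθa : θ a = A 0) (hgz : g * z = z * g)
    (hga : g * a = a * g) (hgb : g * b = b * g) {n : ℕ} (hg : g ^ 5 ^ n = 1) :
    g ∈ Subgroup.zpowers b := by
  obtain ⟨k, k0, hk0, rfl⟩ := S.split hgz hgb
  suffices k0 = 1 by rw [this, mul_one]; exact Subgroup.pow_mem _ (Subgroup.mem_zpowers b) k
  have hab : a * b = b * a := (S.comm_b_iff ha.1).2 ha
  have hk0b := S.K0_comm_b hk0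
  have hn : (b ^ k * k0) ^ 5 ^ (n + 1) = 1 := by rw [pow_succ, pow_mul, hg, one_pow]
  have hk5 : k0 ^ 5 ^ (n + 1) = 1 := by
    rw [((show Commute k0 b from hk0b).pow_right k).symm.mul_pow, pow_succ, ← pow_mul b,
      show k * (5 ^ n * 5) = 5 * (k * 5 ^ n) by ring, pow_mul, S.b_pow, one_pow, one_mul] at hn
    rwa [pow_succ]
  obtain ⟨φ, hφ, -, hφk⟩ := S.exists_K0_hom
  have hσ0 : (φ ⟨k0, hk0⟩ : Equiv.Perm (Fin 5)) 0 = 0 := by
    have hka : k0 * a = a * k0 := by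
      have e1 : (b ^ k)⁻¹ * a = a * (b ^ k)⁻¹ :=
        (((show Commute a b from hab).pow_right k).inv_right.symm).eq
      calc k0 * a = (b ^ k)⁻¹ * ((b ^ k * k0) * a) := by group
        _ = ((b ^ k)⁻¹ * a) * (b ^ k * k0) := by rw [hga]; group
        _ = a * k0 := by rw [e1]; group
    have e := S.ρ_act k0 (S.mem_K0.1 hk0).1 a ha.1
    rw [conj_fix_iff.2 hka, hθa, hφ ⟨k0, hk0⟩, E_A] at e
    exact (A_injective e).symm
  have h5 : φ ⟨k0, hk0⟩ ^ 5 ^ (n + 1) = 1 := by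
    rw [← map_pow, show (⟨k0, hk0⟩ : ↥S.K0) ^ 5 ^ (n + 1) = 1 from Subtype.ext (by simpa using hk5),
      map_one]
  have h55 : φ ⟨k0, hk0⟩ ^ 5 = 1 := by
    refine orderOf_dvd_iff_pow_eq_one.1 ?_
    have hd := orderOf_dvd_natCard (φ ⟨k0, hk0⟩)
    rw [CfsgLib.InvChar.HallJanko.alt_card, show 60 = 5 * 12 from rfl] at hd
    exact (Nat.Coprime.coprime_dvd_left (orderOf_dvd_of_pow_eq_one h5)
      (Nat.Coprime.pow_left (n + 1) (by norm_num : Nat.Coprime 5 12))).dvd_of_dvd_mul_right hd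
  exact S.eq_one_of_five_pow hk5 ((hφk _).1 (alt_five_fix _ h55 hσ0)).1

theorem five_subgroup {a : G} (ha : a ∈ S.U) (hθa : θ a = A 0) {P : Subgroup G} (hP : IsPGroup 5 P)
    (hPz : ∀ g ∈ P, g * z = z * g) (hPa : ∀ g ∈ P, g * a = a * g) (hb : b ∈ P) :
    P ≤ Subgroup.zpowers b := by
  haveI : Fact (Nat.Prime 5) := ⟨Nat.prime_five⟩
  have hpow : ∀ g ∈ P, ∃ n : ℕ, g ^ 5 ^ n = 1 := fun g hg => by
    obtain ⟨n, hn⟩ := hP ⟨g, hg⟩
    exact ⟨n, by simpa using congrArg Subtype.val hn⟩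
  haveI : Nontrivial P := ⟨⟨b, hb⟩, 1, fun e => S.b_ne (congrArg Subtype.val e)⟩
  haveI := hP.center_nontrivial
  obtain ⟨c, hc⟩ := exists_ne (1 : Subgroup.center P)
  have hcc : ∀ g ∈ P, ((c : P) : G) * g = g * c := fun g hg =>
    (congrArg Subtype.val (Subgroup.mem_center_iff.1 c.2 ⟨g, hg⟩)).symm
  have hcP : ((c : P) : G) ∈ P := (c : P).2
  obtain ⟨n, hn⟩ := hpow _ hcP
  have hcb := S.five_elements ha hθa (hPz _ hcP) (hPa _ hcP) (hcc b hb) hn
  have hbc : b ∈ Subgroup.zpowers ((c : P) : G) := by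
    have hle : Subgroup.zpowers ((c : P) : G) ≤ Subgroup.zpowers b := Subgroup.zpowers_le.2 hcb
    have hd := Subgroup.card_dvd_of_le hle
    rw [Nat.card_zpowers, Nat.card_zpowers, S.b_order] at hd
    rcases (Nat.dvd_prime Nat.prime_five).1 hd with e | e
    · exact absurd (Subtype.ext (Subtype.ext (orderOf_eq_one_iff.1 e))) hc
    · rw [Subgroup.eq_of_le_of_card_ge hle (by rw [Nat.card_zpowers, Nat.card_zpowers, S.b_order, e])]
      exact Subgroup.mem_zpowers b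
  intro g hg
  obtain ⟨m, hm⟩ := Subgroup.mem_zpowers_iff.1 hbc
  have hgb : g * b = b * g := by
    rw [← hm]
    exact ((show Commute g ((c : P) : G) from (hcc g hg).symm).zpow_right m).eq
  obtain ⟨n, hn⟩ := hpow g hg
  exact S.five_elements ha hθa (hPz g hg) (hPa g hg) hgb hn

theorem exists_swap {g : G} (hg : g * z * g⁻¹ ∈ Qf z) (hne : g * z * g⁻¹ ≠ z) :
    ∃ a h, Swap z Qf θ ρ J b a h := by
  obtain ⟨a, haU, hθa⟩ := S.exists_U (inA_A 0)
  have haQ := haU.1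
  have h1 : g * z * g⁻¹ ≠ 1 := fun e => S.z_ne (conj_eq_one_iff.1 e)
  have h2 : (g * z * g⁻¹) * (g * z * g⁻¹) = 1 := by
    rw [show g * z * g⁻¹ * (g * z * g⁻¹) = g * (z * z) * g⁻¹ by group, S.z_sq]; group
  obtain ⟨j, hj, hje⟩ := S.half.exists_transport ((S.θ_sq _ hg).1 h2)
    fun e => ((S.θ_ker _ hg).1 e).elim h1 hne
  obtain ⟨c, hc, hρ⟩ := S.ρ_surj _ hj
  have hcg : θ (c * (g * z * g⁻¹) * c⁻¹) = θ a := by rw [S.ρ_act c hc _ hg, hρ, hje, hθa]
  obtain ⟨r₀, hr₀, hθr₀⟩ := S.θ_surj (A 1)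
  have hr₀z := conj_fix_iff.2 (S.comm_z hr₀)
  have hr₀a : r₀ * a * r₀⁻¹ = z * a :=
    S.conj_eq_z hr₀ haQ (by rw [hθr₀, hθa]; exact (A_rel 1 0).2.1)
  obtain ⟨g', hg'⟩ : ∃ g', g' * z * g'⁻¹ = a := by
    rcases S.eq_or_of_θ (S.conj_mem_Q hc hg) haQ hcg with e | e
    · exact ⟨c * g, by rw [← e]; group⟩
    · refine ⟨r₀⁻¹ * (c * g), ?_⟩
      calc r₀⁻¹ * (c * g) * z * (r₀⁻¹ * (c * g))⁻¹ = r₀⁻¹ * (c * (g * z * g⁻¹) * c⁻¹) * r₀ := by group
        _ = r₀⁻¹ * (r₀ * a * r₀⁻¹) * r₀ := by rw [e, hr₀a]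
        _ = a := by group
  have hgood : Good (Qf a) a := S.core.good_of_conj ⟨g', hg'⟩
  have hza : z ∈ Qf a := by
    have := S.core.symm (g := g') (by rw [hg']; exact haQ)
    rwa [hg'] at this
  have haz : a ≠ z := fun e => by
    rw [e, S.θ_z] at hθa
    exact A_ne_zero 0 hθa.symm
  obtain ⟨p, hp, hpz⟩ : ∃ p ∈ Qf a, p * z * p⁻¹ = a * z := by
    by_contra hno
    push Not at hno
    rcases hgood.center z hza (fun x hx => conj_fix_iff.1
      ((hgood.cases_conj x hx z hza).resolve_right (hno x hx))) with e | e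
    · exact S.z_ne e
    · exact haz e.symm
  have hpa := conj_fix_iff.2 (hgood.comm p hp)
  have haa := hgood.sq_u
  have hzz := S.z_sq
  have hcomm : a * z = z * a := S.comm_z haQ
  set h := r₀ * p * r₀ with hh
  have hhz : h * z * h⁻¹ = a := by
    calc r₀ * p * r₀ * z * (r₀ * p * r₀)⁻¹ = r₀ * (p * (r₀ * z * r₀⁻¹) * p⁻¹) * r₀⁻¹ := by group
      _ = r₀ * (a * z) * r₀⁻¹ := by rw [hr₀z, hpz]
      _ = (r₀ * a * r₀⁻¹) * (r₀ * z * r₀⁻¹) := by group
      _ = a := by rw [hr₀a, hr₀z, mul_assoc, hcomm, ← mul_assoc, hzz, one_mul]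
  have hha : h * a * h⁻¹ = z := by
    calc r₀ * p * r₀ * a * (r₀ * p * r₀)⁻¹ = r₀ * (p * (r₀ * a * r₀⁻¹) * p⁻¹) * r₀⁻¹ := by group
      _ = r₀ * ((p * z * p⁻¹) * (p * a * p⁻¹)) * r₀⁻¹ := by rw [hr₀a]; group
      _ = z := by rw [hpz, hpa, hcomm, mul_assoc z a a, haa, mul_one, hr₀z]
  -- Sylow's theorem inside the centraliser of both involutions
  haveI : Fact (Nat.Prime 5) := ⟨Nat.prime_five⟩
  set D : Subgroup G := Subgroup.centralizer ({z} : Set G) ⊓ Subgroup.centralizer ({a} : Set G) with hD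
  have hmemD : ∀ x, x ∈ D ↔ x * z = z * x ∧ x * a = a * x := fun x => by
    rw [hD, Subgroup.mem_inf, Subgroup.mem_centralizer_singleton_iff,
      Subgroup.mem_centralizer_singleton_iff]
  have hbD : b ∈ D := (hmemD b).2 ⟨S.b_comm, ((S.comm_b_iff haQ).2 haU).symm⟩
  have hb'D : h * b * h⁻¹ ∈ D := by
    have e : ∀ x y : G, b * x = x * b → h * x * h⁻¹ = y →
        h * b * h⁻¹ * y = y * (h * b * h⁻¹) := by
      intro x y hbx e
      rw [← e, show h * b * h⁻¹ * (h * x * h⁻¹) = h * (b * x) * h⁻¹ by group, hbx]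
      group
    exact (hmemD _).2 ⟨e a z ((S.comm_b_iff haQ).2 haU).symm hha, e z a S.b_comm hhz⟩
  have hcard5 : ∀ x : D, orderOf (x : G) = 5 → IsPGroup 5 (Subgroup.zpowers x) := fun x hx =>
    IsPGroup.of_card (n := 1) (by rw [Nat.card_zpowers, ← Subgroup.orderOf_coe, hx, pow_one])
  obtain ⟨P, hP⟩ := (hcard5 ⟨b, hbD⟩ S.b_order).exists_le_sylow
  obtain ⟨P', hP'⟩ := (hcard5 ⟨h * b * h⁻¹, hb'D⟩ (by
    show orderOf (MulAut.conj h b) = 5
    rw [MulEquiv.orderOf_eq, S.b_order])).exists_le_sylow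
  obtain ⟨d, hd⟩ := MulAction.exists_smul_eq D P' P
  have hPle : (P : Subgroup D).map D.subtype ≤ Subgroup.zpowers b :=
    S.five_subgroup haU hθa (P.2.map _)
      (fun x hx => by obtain ⟨y, -, rfl⟩ := hx; exact ((hmemD _).1 y.2).1)
      (fun x hx => by obtain ⟨y, -, rfl⟩ := hx; exact ((hmemD _).1 y.2).2)
      ⟨⟨b, hbD⟩, hP (Subgroup.mem_zpowers _), rfl⟩
  obtain ⟨hdz, hda⟩ := (hmemD _).1 d.2
  refine ⟨a, (d : G) * h, ⟨S, haQ, hθa, ?_, ?_, ?_⟩⟩
  · rw [show (d : G) * h * z * ((d : G) * h)⁻¹ = d * (h * z * h⁻¹) * (d : G)⁻¹ by group, hhz,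
      conj_fix_iff.2 hda]
  · rw [show (d : G) * h * a * ((d : G) * h)⁻¹ = d * (h * a * h⁻¹) * (d : G)⁻¹ by group, hha,
      conj_fix_iff.2 hdz]
  · refine hPle ⟨d * ⟨h * b * h⁻¹, hb'D⟩ * d⁻¹, ?_, by simp [mul_assoc]⟩
    rw [← hd]
    exact Subgroup.smul_mem_pointwise_smul _ (MulAut.conj d) _ (hP' (Subgroup.mem_zpowers _))

end Setting

namespace Swap

variable {a h : G} (P : Swap z Qf θ ρ J b a h)
include P

theorem a_U : a ∈ P.toSetting.U := ⟨P.a_mem, by rw [P.θa]; exact inA_A 0⟩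

theorem a_sq : a * a = 1 := (P.θ_sq a P.a_mem).2 (by rw [P.θa, q_A])

theorem a_ne : a ≠ 1 := fun e => A_ne_zero 0 (by rw [← P.θa, e, P.toSetting.θ_one])

theorem a_ne_z : a ≠ z := fun e => A_ne_zero 0 (by rw [← P.θa, e, P.toSetting.θ_z])

theorem az : a * z = z * a := P.toSetting.comm_z P.a_mem

theorem ab : a * b = b * a := (P.toSetting.comm_b_iff P.a_mem).2 P.a_U

theorem good_a : Good (Qf a) a := P.core.good_of_conj ⟨h, P.hz⟩

theorem conj_Qa {x : G} (hx : x ∈ Qf z) : h * x * h⁻¹ ∈ Qf a := by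
  have := P.core.conj_mem h z hx
  rwa [P.hz] at this

theorem Qa_conj {x : G} (hx : x ∈ Qf a) : h⁻¹ * x * h ∈ Qf z := by
  have := P.core.conj_mem h⁻¹ a hx
  rwa [show h⁻¹ * a * h⁻¹⁻¹ = z by rw [← P.hz]; group, inv_inv] at this

theorem conj_comm_b {x : G} (hx : x * b = b * x) : (h * x * h⁻¹) * b = b * (h * x * h⁻¹) := by
  obtain ⟨m, hm⟩ := Subgroup.mem_zpowers_iff.1 (by
    have hle : Subgroup.zpowers (h * b * h⁻¹) ≤ Subgroup.zpowers b := Subgroup.zpowers_le.2 P.hb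
    have e : orderOf (h * b * h⁻¹) = 5 := by
      show orderOf (MulAut.conj h b) = 5
      rw [MulEquiv.orderOf_eq, P.b_order]
    rw [Subgroup.eq_of_le_of_card_ge hle (by rw [Nat.card_zpowers, Nat.card_zpowers, e, P.b_order])]
    exact Subgroup.mem_zpowers b : b ∈ Subgroup.zpowers (h * b * h⁻¹))
  rw [← hm]
  refine ((show Commute (h * x * h⁻¹) (h * b * h⁻¹) from ?_).zpow_right m).eq
  show _ = _
  rw [show h * x * h⁻¹ * (h * b * h⁻¹) = h * (x * b) * h⁻¹ by group, hx]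
  group

theorem comm_b_conj {x : G} (hx : x * b = b * x) : (h⁻¹ * x * h) * b = b * (h⁻¹ * x * h) := by
  have hc : x * (h * b * h⁻¹) = (h * b * h⁻¹) * x := by
    obtain ⟨m, hm⟩ := Subgroup.mem_zpowers_iff.1 P.hb
    rw [← hm]
    exact ((show Commute x b from hx).zpow_right m).eq
  calc h⁻¹ * x * h * b = h⁻¹ * (x * (h * b * h⁻¹)) * h := by group
    _ = b * (h⁻¹ * x * h) := by rw [hc]; group

end Swap

end CfsgLib.ConwayFive
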